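import Mathlib
import Cfsg.Agent.Lib.Helper44.NegPairs
import Cfsg.Agent.Lib.Helper94.OPStmt

/-!
# S5989 / NEGSQNOFIX (call by helper94)

An isometry `x` of the plus form with `x * x = -1` stabilises no nondegenerate subspace `W` of
odd dimension: the determinant `δ` of `x` on `W` satisfies `δ² = 1` (isometry of a nondegenerate
form) and `δ² = det (-1) = (-1) ^ dim W = -1`.
-/

set_option autoImplicit false

universe u

open scoped Matrix

namespace Cfsg.Agent.Lib.Helper82.OPNEGSQNOFIX

open Cfsg.Agent.Lib.Helper94.OPStmt Cfsg.Agent.Lib.Helper44.NegPairs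

theorem two_ne_zero_of_odd (F : Type u) [Field F] [Fintype F] (h : Odd (Fintype.card F)) :
    (2 : F) ≠ 0 := by
  intro h2
  have h3 : ringChar F = 2 := by
    have hd : ringChar F ∣ 2 := ringChar.dvd (by exact_mod_cast h2)
    rcases (Nat.dvd_prime Nat.prime_two).1 hd with h | h
    · exact absurd h (CharP.ringChar_ne_one)
    · exact h
  have h4 := FiniteField.even_card_of_char_two h3
  rcases h with ⟨k, hk⟩
  omega

/-- an isometry of a nondegenerate bilinear form has determinant of square one -/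
theorem det_sq_of_isometry {F : Type u} [Field F] {V : Type*} [AddCommGroup V] [Module F V]
    [FiniteDimensional F V] (B : LinearMap.BilinForm F V) (hB : B.Nondegenerate)
    (A : V →ₗ[F] V) (hA : ∀ u v, B (A u) (A v) = B u v) :
    LinearMap.det A * LinearMap.det A = 1 := by
  classical
  have h1 : B.comp A A = B := by
    apply LinearMap.ext₂
    intro u v
    exact hA u v
  have h2 := LinearMap.BilinForm.toMatrix_comp (Module.finBasis F V) (Module.finBasis F V) B A A
  rw [h1] at h2
  have h3 := congrArg Matrix.det h2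
  rw [Matrix.det_mul, Matrix.det_mul, Matrix.det_transpose, LinearMap.det_toMatrix] at h3
  have h4 : (LinearMap.BilinForm.toMatrix (Module.finBasis F V) B).det ≠ 0 :=
    (LinearMap.BilinForm.nondegenerate_iff_det_ne_zero (Module.finBasis F V)).1 hB
  have h5 : (LinearMap.det A * LinearMap.det A - 1) *
      (LinearMap.BilinForm.toMatrix (Module.finBasis F V) B).det = 0 := by
    linear_combination -h3
  rcases mul_eq_zero.1 h5 with h | h
  · exact sub_eq_zero.1 h
  · exact absurd h h4

theorem main : NegSqNoFix.{u} := by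
  intro F _ _ hodd d m hm x hx hxx W hWm hW hst
  classical
  have h2 : (2 : F) ≠ 0 := two_ne_zero_of_odd F hodd
  have hQ : ∀ u : P d → F, Cfsg.quadFormPlus d F ((x : Matrix (P d) (P d) F) *ᵥ u)
      = Cfsg.quadFormPlus d F u := fun u => hx u u
  have hinv : ∀ w ∈ W, Matrix.toLin' (x : Matrix (P d) (P d) F) w ∈ W :=
    fun w hw => hst (Submodule.mem_map_of_mem hw)
  obtain ⟨A, hA⟩ : ∃ A : ↥W →ₗ[F] ↥W, ∀ w : ↥W,
      ((A w : ↥W) : P d → F) = (x : Matrix (P d) (P d) F) *ᵥ (w : P d → F) :=
    ⟨(Matrix.toLin' (x : Matrix (P d) (P d) F)).restrict hinv, fun w => by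
      rw [LinearMap.coe_restrict_apply, Matrix.toLin'_apply]⟩
  obtain ⟨B, hB⟩ : ∃ B : LinearMap.BilinForm F ↥W, ∀ u v : ↥W,
      B u v = QuadraticMap.polar (Cfsg.quadFormPlus d F) (u : P d → F) (v : P d → F) :=
    ⟨LinearMap.BilinForm.restrict (QuadraticMap.polarBilin (plusQ d F)) W, fun u v => rfl⟩
  have hnd : B.Nondegenerate := by
    constructor
    · intro u hu
      by_contra hu0
      have hu0' : (u : P d → F) ≠ 0 := fun h => hu0 (Subtype.ext h)
      obtain ⟨-, ⟨y, hy, hyu⟩⟩ := hW u u.2 hu0'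
      apply hyu
      have h1 := hu ⟨y, hy⟩
      rw [hB] at h1
      exact h1
    · intro v hv
      by_contra hv0
      have hv0' : (v : P d → F) ≠ 0 := fun h => hv0 (Subtype.ext h)
      obtain ⟨⟨y, hy, hyv⟩, -⟩ := hW v v.2 hv0'
      apply hyv
      have h1 := hv ⟨y, hy⟩
      rw [hB] at h1
      exact h1
  have hiso : ∀ u v : ↥W, B (A u) (A v) = B u v := by
    intro u v
    rw [hB, hB, hA, hA]
    unfold QuadraticMap.polar
    rw [← Matrix.mulVec_add, hQ, hQ, hQ]
  have hdet1 := det_sq_of_isometry B hnd A hiso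
  have hAA : A ∘ₗ A = (-1 : F) • LinearMap.id := by
    apply LinearMap.ext
    intro w
    apply Subtype.ext
    rw [LinearMap.comp_apply, hA, hA, Matrix.mulVec_mulVec, hxx, Matrix.neg_mulVec,
      Matrix.one_mulVec, LinearMap.smul_apply, LinearMap.id_apply, neg_smul, one_smul]
    rfl
  have hdet2 : LinearMap.det A * LinearMap.det A = -1 := by
    rw [← map_mul, Module.End.mul_eq_comp, hAA, LinearMap.det_smul, LinearMap.det_id, mul_one,
      hWm, Odd.neg_one_pow hm]
  rw [hdet1] at hdet2
  apply h2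
  have h6 : (2 : F) = 1 - (-1) := by ring
  rw [h6, ← hdet2]
  ring


end Cfsg.Agent.Lib.Helper82.OPNEGSQNOFIX
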