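import Mathlib
import Cfsg.Agent.Lib.Helper37.EluStmt
import Cfsg.Agent.Lib.Helper40.PrimeFix

set_option autoImplicit false

/-! S5958, piece [BLK]: an element of `SL_n(F)` of order dividing `r` with exactly `s`
non-trivial blocks. -/

namespace Cfsg.Agent.Lib.Helper82.EluBLK

open Polynomial UniqueFactorizationMonoid
open Cfsg.Agent.Lib.Helper37.EluStmt Cfsg.Agent.Lib.Helper40.PrimeFix
  Cfsg.Agent.Lib.Helper40.SSConj

universe u

/-- the fixed space of a semisimple endomorphism has the dimension of the multiplicity of the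
root `1` of the characteristic polynomial -/
theorem finrank_ker_sub_one {F : Type*} [Field F] {V : Type*} [AddCommGroup V] [Module F V]
    [FiniteDimensional F V] (φ : Module.End F V) (hs : φ.IsSemisimple) :
    Module.finrank F (LinearMap.ker (φ - 1)) = φ.charpoly.rootMultiplicity 1 := by
  rw [← LinearMap.finrank_maxGenEigenspace_eq,
    hs.isFinitelySemisimple.maxGenEigenspace_eq_eigenspace, Module.End.eigenspace_def, one_smul]

/-- piece [BLK] -/
theorem main : BlkElt.{u} := by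
  intro F _ _ p _ _ r _ hrp hc2 n s hcs
  classical
  have hr : r.Prime := Fact.out
  obtain ⟨i, hi⟩ : ∃ i, i = orderOf ((Fintype.card F : ℕ) : ZMod r) := ⟨_, rfl⟩
  rw [← hi] at hc2 hcs ⊢
  obtain ⟨t, ht⟩ := order_dvd (F := F) (p := p) r hrp
  rw [← hi] at ht
  obtain ⟨S, hScard, hS1, hS, hdiv⟩ := Cfsg.Agent.S2568.cyclo_facts (F := F) (p := p) r i t hr hrp
    hi (by rw [ht, mul_comm])
  have ht1 : 1 ≤ t := by
    rcases t with _ | t
    · rw [mul_zero] at ht
      have := hr.two_le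
      omega
    · omega
  obtain ⟨P, hP⟩ : ∃ P, P ∈ S := by
    have h1 : 0 < S.card := by omega
    exact Finset.card_pos.mp h1
  obtain ⟨hPirr, hPmon, hPdeg⟩ := hS P hP
  have hLirr : Irreducible (X - C (1 : F)) := irreducible_X_sub_C 1
  have hLmon : (X - C (1 : F)).Monic := monic_X_sub_C 1
  have hPdvd : P ∣ X ^ r - C (1 : F) := (hdiv P hPirr hPmon).mpr (Or.inr hP)
  have hP0 : P.coeff 0 ≠ 0 := by
    apply Cfsg.Agent.Lib.Helper40.RecipPoly.coeff0_of_dvd hPdvd
    rw [coeff_zero_eq_eval_zero, eval_sub, eval_pow, eval_X, eval_C, zero_pow hr.ne_zero, zero_sub]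
    exact neg_ne_zero.mpr one_ne_zero
  have hP1 : ¬ P.IsRoot 1 := by
    intro h1
    have h2 : X - C (1 : F) ∣ P := dvd_iff_isRoot.mpr h1
    have h3 := natDegree_le_of_dvd (hLirr.dvd_symm hPirr h2) (X_sub_C_ne_zero (1 : F))
    rw [hPdeg, natDegree_X_sub_C] at h3
    omega
  obtain ⟨M, hM⟩ : ∃ M : Multiset F[X], M = Multiset.replicate s P +
      Multiset.replicate (n - i * s) (X - C (1 : F)) := ⟨_, rfl⟩
  have hMfac : ∀ Q ∈ M, Irreducible Q ∧ Q.Monic := by
    intro Q hQ
    rw [hM, Multiset.mem_add] at hQ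
    rcases hQ with hQ | hQ
    · rw [Multiset.eq_of_mem_replicate hQ]
      exact ⟨hPirr, hPmon⟩
    · rw [Multiset.eq_of_mem_replicate hQ]
      exact ⟨hLirr, hLmon⟩
  have hMprod : M.prod = P ^ s * (X - C (1 : F)) ^ (n - i * s) := by
    rw [hM, Multiset.prod_add, Multiset.prod_replicate, Multiset.prod_replicate]
  have hmonic : M.prod.Monic := by
    rw [hMprod]
    exact (hPmon.pow _).mul (hLmon.pow _)
  have hnd : M.prod.natDegree = n := by
    rw [hMprod, (hPmon.pow _).natDegree_mul (hLmon.pow _), hPmon.natDegree_pow,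
      hLmon.natDegree_pow, hPdeg, natDegree_X_sub_C, mul_one]
    have : s * i = i * s := mul_comm _ _
    omega
  have hc0 : M.prod.coeff 0 ≠ 0 := by
    rw [hMprod, mul_coeff_zero]
    apply mul_ne_zero
    · rw [coeff_zero_eq_eval_zero, eval_pow, ← coeff_zero_eq_eval_zero]
      exact pow_ne_zero _ hP0
    · rw [coeff_zero_eq_eval_zero, eval_pow, eval_sub, eval_X, eval_C, zero_sub]
      exact pow_ne_zero _ (neg_ne_zero.mpr one_ne_zero)
  obtain ⟨g, hg, N, hN0, hNp, hgN⟩ := Cfsg.Agent.Lib.Helper40.SSCount.exists_charpoly p n M.prod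
    hmonic hnd hc0
  have hnf : normalizedFactors g.charpoly = M := by
    rw [hg]
    exact Cfsg.Agent.S2568.nf_prod M hMfac
  have hgr : g ^ r = 1 := by
    apply Cfsg.Agent.S2568.pow_eq_one_of_charpoly (p := p) g r N hNp hgN
    intro Q hQ
    rw [hnf, hM, Multiset.mem_add] at hQ
    rcases hQ with hQ | hQ
    · rw [Multiset.eq_of_mem_replicate hQ]
      exact hPdvd
    · rw [Multiset.eq_of_mem_replicate hQ]
      exact (hdiv _ hLirr hLmon).mpr (Or.inl rfl)
  have hr0 : (r : F) ≠ 0 := cast_ne_zero' (p := p) r hrp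
  have hs : Module.End.IsSemisimple (Matrix.toLin' g) := isSemisimple_toLin' g r hr0 hgr
  have hdet : g.det = 1 := by
    apply Cfsg.Agent.Lib.Helper40.PrimeElts.root_trivial r hr (by rw [← hi]; omega)
    rw [← Matrix.det_pow, hgr, Matrix.det_one]
  refine ⟨g, hdet, hgr, ?_⟩
  have hcp : (Matrix.toLin' g).charpoly = g.charpoly := by
    rw [← Matrix.toLin_eq_toLin', Matrix.charpoly_toLin]
  have hPs : ¬ (P ^ s).IsRoot 1 := by
    intro h
    rw [IsRoot.def, eval_pow] at h
    exact hP1 (eq_zero_of_pow_eq_zero h)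
  rw [finrank_ker_sub_one _ hs, hcp, hg, hMprod,
    rootMultiplicity_mul (mul_ne_zero (pow_ne_zero _ hPmon.ne_zero) (pow_ne_zero _ hLmon.ne_zero)),
    rootMultiplicity_eq_zero hPs, rootMultiplicity_X_sub_C_pow, zero_add]
  omega

end Cfsg.Agent.Lib.Helper82.EluBLK
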