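import Mathlib
import Cfsg.Agent.Lib.Helper94.OPStmt
import Cfsg.Agent.Lib.Helper44.NegPairs

/-!
# S5989 / UCARDP (call by helper94; second seat): transfer of `ACardI` to a nondegenerate
subspace `U` of the standard plus space (port of `Helper94.EllUCARD`).
-/

set_option autoImplicit false

universe u

open scoped Matrix

namespace Cfsg.Agent.Lib.Helper82.OPUCARDP

open Cfsg.Agent.Lib.Helper94.OPStmt
open Cfsg.Agent.Lib.Helper44.NegPairs

variable {F : Type u} [Field F] {d : ℕ}

/-- the restriction of the standard plus form to `U` -/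
def rq (d : ℕ) (F : Type u) [Field F] (U : Submodule F (P d → F)) : QuadraticForm F ↥U :=
  (plusQ d F).comp U.subtype

theorem rq_apply (U : Submodule F (P d → F)) (x : ↥U) :
    rq d F U x = Cfsg.quadFormPlus d F (x : P d → F) := rfl

theorem polar_rq (U : Submodule F (P d → F)) (x y : ↥U) :
    QuadraticMap.polar (rq d F U) x y =
      QuadraticMap.polar (Cfsg.quadFormPlus d F) (x : P d → F) (y : P d → F) := rfl

theorem polar_comm' (x y : P d → F) :
    QuadraticMap.polar (Cfsg.quadFormPlus d F) x y =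
      QuadraticMap.polar (Cfsg.quadFormPlus d F) y x := QuadraticMap.polar_comm _ x y

/-- transfer of membership -/
theorem amem_iff (U : Submodule F (P d → F)) (m : ℕ) (W₀ : Submodule F (P d → F))
    (hW₀ : Module.finrank F ↥W₀ = m) (W' : Submodule F ↥U) :
    AMem (rq d F U) (rq d F W₀) W' ↔ Mem d F m W₀ (W'.map U.subtype) := by
  have hfr : Module.finrank F ↥(W'.map U.subtype) = Module.finrank F ↥W' :=
    Submodule.finrank_map_subtype_eq U W'
  unfold AMem Mem
  constructor
  · rintro ⟨hnd, e, he⟩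
    refine ⟨?_, ?_, ?_⟩
    · rw [hfr, ← hW₀]
      exact e.finrank_eq
    · intro w hw hw0
      obtain ⟨w₀, hw₀, rfl⟩ := Submodule.mem_map.mp hw
      have hw₀0 : w₀ ≠ 0 := by
        rintro rfl
        exact hw0 (map_zero _)
      have hex : ∃ y ∈ W', QuadraticMap.polar (rq d F U) w₀ y ≠ 0 := by
        by_contra hc
        push Not at hc
        exact hw₀0 (hnd w₀ hw₀ hc)
      obtain ⟨y, hy, hy0⟩ := hex
      rw [polar_rq] at hy0
      refine ⟨⟨U.subtype y, Submodule.mem_map_of_mem hy, ?_⟩,
        ⟨U.subtype y, Submodule.mem_map_of_mem hy, ?_⟩⟩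
      · rw [polar_comm']
        exact hy0
      · exact hy0
    · refine ⟨(Submodule.equivSubtypeMap U W').symm.trans e, ?_⟩
      intro w
      have h1 := he ((Submodule.equivSubtypeMap U W').symm w)
      have h2 : ((((Submodule.equivSubtypeMap U W').symm w : ↥W') : ↥U) : P d → F)
          = (w : P d → F) := Submodule.equivSubtypeMap_symm_apply w
      show Cfsg.quadFormPlus d F ((e ((Submodule.equivSubtypeMap U W').symm w) : ↥W₀) : P d → F)
        = Cfsg.quadFormPlus d F (w : P d → F)
      rw [← h2]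
      exact h1
  · rintro ⟨-, hnd, e, he⟩
    refine ⟨?_, ?_⟩
    · intro x hx hxy
      by_contra hx0
      have hx0' : U.subtype x ≠ 0 := by
        intro h0
        exact hx0 (Subtype.ext h0)
      obtain ⟨-, z, hz, hz0⟩ := hnd (U.subtype x) (Submodule.mem_map_of_mem hx) hx0'
      obtain ⟨y, hy, rfl⟩ := Submodule.mem_map.mp hz
      exact hz0 (hxy y hy)
    · refine ⟨(Submodule.equivSubtypeMap U W').trans e, ?_⟩
      intro w
      exact he (Submodule.equivSubtypeMap U W' w)

theorem ndeg_bot' : NDegP d F (⊥ : Submodule F (P d → F)) := by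
  intro w hw hw0
  exact absurd ((Submodule.mem_bot F).mp hw) hw0

theorem main (hAC : ACardI.{u}) (hOS : OddSub.{u}) : UCardP.{u} := by
  intro F _ _ p _ _ hodd d m hm W₀ hW₀m hW₀nd r _ hr2 hrp U hU hmU hUc
  classical
  have hSep : ∀ x : ↥U, (∀ y : ↥U, QuadraticMap.polar (rq d F U) x y = 0) → x = 0 := by
    intro x hx
    by_contra hx0
    have hx0' : (x : P d → F) ≠ 0 := fun h0 => hx0 (Subtype.ext h0)
    obtain ⟨-, z, hz, hz0⟩ := hU (x : P d → F) x.2 hx0'
    exact hz0 (hx ⟨z, hz⟩)
  have hb : Module.finrank F (⊥ : Submodule F (P d → F)) = 0 := finrank_bot F (P d → F)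
  have hne : ∃ W' : Submodule F ↥U, AMem (rq d F U) (rq d F W₀) W' := by
    obtain ⟨W₁, hW₁, hE⟩ := hOS F hodd d m hm W₀ hW₀m hW₀nd ⊥ U ndeg_bot' hU
      (fun u hu v _ => by
        rw [(Submodule.mem_bot F).mp hu]
        simp [QuadraticMap.polar, Cfsg.quadFormPlus])
      (by rw [hb]; exact Even.zero) (by rw [hb]; exact hm.pos) (by rw [hb]; simpa using hmU)
    rw [bot_sup_eq] at hE
    refine ⟨W₁.comap U.subtype, ?_⟩
    rw [amem_iff U m W₀ hW₀m, Submodule.map_comap_subtype, inf_eq_right.mpr hW₁]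
    exact hE
  have key := hAC F p hodd ↥U (rq d F U) hSep ↥W₀ (rq d F W₀) r hr2 hrp hUc hne
  have hcard : Nat.card {W : Submodule F (P d → F) // Mem d F m W₀ W ∧ W ≤ U} =
      Nat.card {W' : Submodule F ↥U // AMem (rq d F U) (rq d F W₀) W'} := by
    refine Nat.card_congr
      { toFun := fun W => ⟨W.1.comap U.subtype, ?_⟩
        invFun := fun W' => ⟨W'.1.map U.subtype, ⟨(amem_iff U m W₀ hW₀m W'.1).mp W'.2,
          Submodule.map_subtype_le U W'.1⟩⟩
        left_inv := ?_
        right_inv := ?_ }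
    · rw [amem_iff U m W₀ hW₀m, Submodule.map_comap_subtype, inf_eq_right.mpr W.2.2]
      exact W.2.1
    · intro W
      apply Subtype.ext
      show (W.1.comap U.subtype).map U.subtype = W.1
      rw [Submodule.map_comap_subtype, inf_eq_right.mpr W.2.2]
    · intro W'
      apply Subtype.ext
      show (W'.1.map U.subtype).comap U.subtype = W'.1
      exact Submodule.comap_map_eq_of_injective (Submodule.injective_subtype U) W'.1
  rw [hcard]
  exact key


end Cfsg.Agent.Lib.Helper82.OPUCARDP
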