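import Mathlib
import Cfsg.Agent.Lib.Helper45.EPStmt
import Cfsg.Agent.Lib.Helper29.HypDIMOBS
import Cfsg.Agent.Lib.Helper44.CD2a
import Cfsg.Agent.Lib.Helper44.OTyp1
import Cfsg.Agent.Lib.Helper44.WittND2
import Cfsg.Agent.Lib.Helper44.SpinCount
import Cfsg.Agent.Lib.Helper44.QBasis
import Cfsg.Agent.Lib.Helper8.HypHYPSUB
import Cfsg.Agent.Lib.Helper4.OPACARDI
import Cfsg.Agent.Lib.Helper82.OPUCARDP

/-!
# S5988 / UCARDE (call by helper45): for a nondegenerate `U` with `m < dim U < c`, `r` does not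
divide the number of elliptic `m`-spaces inside `U` (all `q`).

* `cauchy_all`: `EllStmt.ACauchy` without the hypothesis `q` odd (in characteristic 2 the space
  `(g - 1) V` is nondegenerate for the alternating polar form, hence of even dimension).
* `acardi_all`: `OPStmt.ACardI` without the hypothesis `q` odd (Witt: `WittND2.exists_O_map`).
* elliptic `m`-spaces are pairwise isometric (`OTyp1.exists_iso`).
-/

set_option autoImplicit false

universe u

open scoped Matrix

namespace Cfsg.Agent.Lib.Helper82.EPUCARDE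

open Module QuadraticMap
open Cfsg.Agent.Lib.Helper37.HypStmt (cc)
open Cfsg.Agent.Lib.Helper94.OPStmt
open Cfsg.Agent.Lib.Helper45.EPStmt
open Cfsg.Agent.Lib.Helper44.QSpace Cfsg.Agent.Lib.Helper44.QClass Cfsg.Agent.Lib.Helper44.OTyp1
open Cfsg.Agent.Lib.Helper44.QBasis Cfsg.Agent.Lib.Helper44.SpinCount
open Cfsg.Agent.Lib.Helper44.NegPairs
open Cfsg.Agent.Lib.Helper82.OPUCARDP

/-- a nondegenerate quadratic space of dimension `< c` has no isometry of order `r` (all `q`) -/
theorem cauchy_all (F : Type u) [Field F] [Fintype F] (p : ℕ) [Fact p.Prime] [CharP F p]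
    (V : Type u) [AddCommGroup V] [Module F V] [FiniteDimensional F V] (Q : QuadraticForm F V)
    (hnd : ∀ x, (∀ y, QuadraticMap.polar Q x y = 0) → x = 0)
    (r : ℕ) [Fact r.Prime] (hr2 : r ≠ 2) (hrp : r ≠ p)
    (hdim : Module.finrank F V < cc (orderOf ((Fintype.card F : ℕ) : ZMod r)))
    (g : V ≃ₗ[F] V) (hgQ : ∀ v, Q (g v) = Q v) (hgr : g ^ r = 1) : g = 1 := by
  classical
  have hrprime : r.Prime := Fact.out
  have hpprime : p.Prime := Fact.out
  have hrF : (r : F) ≠ 0 := by
    intro h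
    rw [CharP.cast_eq_zero_iff F p r] at h
    exact hrp ((Nat.prime_dvd_prime_iff_eq hpprime hrprime).mp h).symm
  set A : V →ₗ[F] V := (g : V →ₗ[F] V) with hA
  have hpow : ∀ (k : ℕ) (v : V), (A ^ k) v = (g ^ k) v := by
    intro k
    induction k with
    | zero => intro v; rfl
    | succ k ih =>
      intro v
      rw [pow_succ, pow_succ, Module.End.mul_apply, LinearEquiv.mul_apply, ih]
      rfl
  have hAr : A ^ r = 1 := by
    ext v
    rw [hpow, hgr]
    rfl
  have hfin : Finite V := Module.finite_of_finite F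
  set R : Submodule F V := (⊤ : Submodule F V).map (A - 1) with hR
  have hRmem : ∀ v ∈ R, ∃ w : V, v = A w - w := by
    intro v hv
    obtain ⟨w, -, rfl⟩ := hv
    exact ⟨w, rfl⟩
  have hRinv : ∀ v ∈ R, A v ∈ R := by
    intro v hv
    obtain ⟨w, rfl⟩ := hRmem v hv
    refine ⟨A w, trivial, ?_⟩
    simp [map_sub]
  have hRfix : ∀ v ∈ R, A v = v → v = 0 := by
    intro v hv hfix
    obtain ⟨w, rfl⟩ := hRmem v hv
    exact Cfsg.Agent.Lib.Helper29.HypDIMOBS.no_fix A r hrF hAr w hfix
  have hdvd : orderOf ((Fintype.card F : ℕ) : ZMod r) ∣ Module.finrank F R :=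
    Cfsg.Agent.Lib.Helper29.HypDIMOBS.free_dvd A r hAr R hRinv hRfix
  have heven : Even (Module.finrank F R) := by
    by_cases h2 : (2 : F) = 0
    · have hch : CharP F 2 := CharTwo.of_one_ne_zero_of_two_eq_zero one_ne_zero h2
      have hpolA : ∀ a b, QuadraticMap.polar Q (A a) (A b) = QuadraticMap.polar Q a b := by
        intro a b
        show Q (g a + g b) - Q (g a) - Q (g b) = Q (a + b) - Q a - Q b
        rw [← map_add, hgQ, hgQ, hgQ]
      have hN : ∀ w : V, A ((∑ i ∈ Finset.range r, A ^ i) w) = (∑ i ∈ Finset.range r, A ^ i) w := by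
        intro w
        have h1 : (A - 1) * (∑ i ∈ Finset.range r, A ^ i) = 0 := by
          rw [mul_geom_sum, hAr, sub_self]
        have h3 := congrArg (fun f : V →ₗ[F] V => f w) h1
        simp only [Module.End.mul_apply, LinearMap.sub_apply, Module.End.one_apply,
          LinearMap.zero_apply] at h3
        exact sub_eq_zero.mp h3
      have hpowR : ∀ (i : ℕ) (w : V), (A ^ i) w - w ∈ R := by
        intro i w
        have h1 : (A - 1) * (∑ j ∈ Finset.range i, A ^ j) = A ^ i - 1 := mul_geom_sum A i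
        have h3 := congrArg (fun f : V →ₗ[F] V => f w) h1
        simp only [Module.End.mul_apply, LinearMap.sub_apply, Module.End.one_apply] at h3
        rw [← h3]
        exact ⟨(∑ j ∈ Finset.range i, A ^ j) w, trivial, by simp⟩
      have hSR : Sep (res Q R) := by
        intro x hx
        apply Subtype.ext
        apply hnd
        intro w
        obtain ⟨u, hu⟩ := hRmem (x : V) x.2
        have hxR : ∀ y ∈ R, QuadraticMap.polar Q (x : V) y = 0 := fun y hy => hx ⟨y, hy⟩
        have h0 : QuadraticMap.polar Q (x : V) ((∑ i ∈ Finset.range r, A ^ i) w) = 0 := by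
          rw [hu, QuadraticMap.polar_sub_left]
          nth_rewrite 1 [← hN w]
          rw [hpolA, sub_self]
        have h1 : QuadraticMap.polar Q (x : V) ((∑ i ∈ Finset.range r, A ^ i) w)
            = (r : F) * QuadraticMap.polar Q (x : V) w := by
          rw [LinearMap.sum_apply]
          have h5 : ∀ i ∈ Finset.range r, QuadraticMap.polar Q (x : V) ((A ^ i) w)
              = QuadraticMap.polar Q (x : V) w := by
            intro i _
            have h3 : (A ^ i) w = w + ((A ^ i) w - w) := by abel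
            rw [h3, QuadraticMap.polar_add_right, hxR _ (hpowR i w), add_zero]
          have h4 : QuadraticMap.polar Q (x : V) (∑ i ∈ Finset.range r, (A ^ i) w)
              = ∑ i ∈ Finset.range r, QuadraticMap.polar Q (x : V) ((A ^ i) w) :=
            map_sum (QuadraticMap.polarBilin Q (x : V)) _ _
          rw [h4, Finset.sum_congr rfl h5, Finset.sum_const, Finset.card_range, nsmul_eq_mul]
        rw [h1] at h0
        exact (mul_eq_zero.mp h0).resolve_left hrF
      exact Cfsg.Agent.Lib.Helper44.CD2a.even_finrank (Module.finrank F R) R (res Q R) rfl hSR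
    · refine Cfsg.Agent.Lib.Helper29.HypDIMOBS.even_rank h2 Q A r (hrprime.odd_of_ne_two hr2) hrF
        hAr (fun v => hgQ v) ⊤ (fun w _ => trivial) ?_
      intro w _ hw
      by_contra hcon
      push Not at hcon
      apply hw
      apply hnd
      intro y
      rw [QuadraticMap.polar_comm]
      exact hcon y trivial
  have hcc : cc (orderOf ((Fintype.card F : ℕ) : ZMod r)) ∣ Module.finrank F R := by
    unfold cc
    split_ifs with hi
    · exact hdvd
    · rw [Nat.not_even_iff_odd] at hi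
      exact Nat.Coprime.mul_dvd_of_dvd_of_dvd (Nat.coprime_two_left.mpr hi)
        heven.two_dvd hdvd
  have hle : Module.finrank F R ≤ Module.finrank F V := Submodule.finrank_le R
  have h0 : Module.finrank F R = 0 := Nat.eq_zero_of_dvd_of_lt hcc (lt_of_le_of_lt hle hdim)
  have hbot : R = ⊥ := Submodule.finrank_eq_zero.mp h0
  ext v
  have h1 : (A - 1) v ∈ R := ⟨v, trivial, rfl⟩
  rw [hbot, Submodule.mem_bot] at h1
  have h3 : A v - v = 0 := h1
  have h4 : g v = v := sub_eq_zero.mp h3
  rw [h4]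
  rfl

/-- `OPStmt.ACardI` for all `q` -/
theorem acardi_all (F : Type u) [Field F] [Fintype F] (p : ℕ) [Fact p.Prime] [CharP F p]
    (V : Type u) [AddCommGroup V] [Module F V] [FiniteDimensional F V] (Q : QuadraticForm F V)
    (hnd : ∀ x, (∀ y, QuadraticMap.polar Q x y = 0) → x = 0)
    (M : Type u) [AddCommGroup M] [Module F M] (QM : QuadraticForm F M)
    (r : ℕ) [Fact r.Prime] (hr2 : r ≠ 2) (hrp : r ≠ p)
    (hdim : Module.finrank F V < cc (orderOf ((Fintype.card F : ℕ) : ZMod r)))
    (hex : ∃ W : Submodule F V, AMem Q QM W) :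
    ¬ r ∣ Nat.card {W : Submodule F V // AMem Q QM W} := by
  intro hdvd
  classical
  have hVfin : Finite V := Module.finite_of_finite F
  have hGLfin : Finite (V ≃ₗ[F] V) :=
    Finite.of_injective (fun g : V ≃ₗ[F] V => (g : V → V)) DFunLike.coe_injective
  let G : Subgroup (V ≃ₗ[F] V) :=
    { carrier := {g | ∀ v, Q (g v) = Q v}
      mul_mem' := by
        intro a b ha hb v
        rw [LinearEquiv.mul_apply, ha, hb]
      one_mem' := by
        intro v
        rfl
      inv_mem' := by
        intro a ha v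
        have e : a (a⁻¹ v) = v := by
          rw [← LinearEquiv.mul_apply, mul_inv_cancel]
          rfl
        rw [← ha (a⁻¹ v), e] }
  have hGmem : ∀ g : G, ∀ v, Q ((g : V ≃ₗ[F] V) v) = Q v := fun g => g.2
  let act : MulAction G {W : Submodule F V // AMem Q QM W} :=
    { smul := fun g s => ⟨s.1.map ((g : V ≃ₗ[F] V) : V →ₗ[F] V),
        Cfsg.Agent.Lib.Helper4.OPACARDI.amem_map Q QM (g : V ≃ₗ[F] V) (hGmem g) s.1 s.2⟩
      one_smul := by
        intro s
        apply Subtype.ext
        show s.1.map (((1 : G) : V ≃ₗ[F] V) : V →ₗ[F] V) = s.1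
        ext x
        constructor
        · rintro ⟨w, hw, rfl⟩
          exact hw
        · intro hx
          exact ⟨x, hx, rfl⟩
      mul_smul := by
        intro a b s
        apply Subtype.ext
        show s.1.map (((a * b : G) : V ≃ₗ[F] V) : V →ₗ[F] V) =
          (s.1.map ((b : V ≃ₗ[F] V) : V →ₗ[F] V)).map ((a : V ≃ₗ[F] V) : V →ₗ[F] V)
        ext x
        constructor
        · rintro ⟨w, hw, rfl⟩
          exact ⟨(b : V ≃ₗ[F] V) w, ⟨w, hw, rfl⟩, rfl⟩
        · rintro ⟨_, ⟨w, hw, rfl⟩, rfl⟩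
          exact ⟨w, hw, rfl⟩ }
  have hsmul : ∀ (g : G) (s : {W : Submodule F V // AMem Q QM W}),
      (g • s).1 = s.1.map ((g : V ≃ₗ[F] V) : V →ₗ[F] V) := fun g s => rfl
  have htrans : MulAction.IsPretransitive G {W : Submodule F V // AMem Q QM W} := by
    refine ⟨fun s s' => ?_⟩
    obtain ⟨g, hg, hgW⟩ :=
      Cfsg.Agent.Lib.Helper4.OPACARDI.trans_amem Q hnd QM s.1 s'.1 s.2 s'.2
    refine ⟨⟨g, hg⟩, ?_⟩
    apply Subtype.ext
    rw [hsmul]
    exact hgW
  obtain ⟨W₀, hW₀⟩ := hex
  have hidx : (MulAction.stabilizer G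
      (⟨W₀, hW₀⟩ : {W : Submodule F V // AMem Q QM W})).index =
      Nat.card {W : Submodule F V // AMem Q QM W} :=
    MulAction.index_stabilizer_of_transitive G _
  have hrG : r ∣ Nat.card G := by
    rw [← hidx] at hdvd
    exact hdvd.trans (Subgroup.index_dvd_card _)
  obtain ⟨g, hg⟩ := exists_prime_orderOf_dvd_card' r hrG
  have hgr : ((g : V ≃ₗ[F] V)) ^ r = 1 := by
    have h0 := pow_orderOf_eq_one g
    rw [hg] at h0
    have h1 := congrArg Subtype.val h0
    simpa using h1
  have hg1 := cauchy_all F p V Q hnd r hr2 hrp hdim (g : V ≃ₗ[F] V) (hGmem g) hgr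
  have hg1' : g = 1 := Subtype.ext hg1
  rw [hg1', orderOf_one] at hg
  exact (Fact.out : r.Prime).one_lt.ne hg

section ell

variable {F : Type u} [Field F] [Fintype F] {d : ℕ}

omit [Fintype F] in
theorem sep_of_meme {m : ℕ} {W : Submodule F (P d → F)} (hW : MemE d F m W) :
    Sep (res (plusQ d F) W) := by
  intro x hx
  by_contra hx0
  have hx0' : (x : P d → F) ≠ 0 := fun h0 => hx0 (Subtype.ext h0)
  obtain ⟨-, z, hz, hz0⟩ := hW.2.1 (x : P d → F) x.2 hx0'
  exact hz0 (hx ⟨z, hz⟩)

/-- the number of singular vectors of an elliptic subspace (all `q`) -/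
theorem card_of_meme {k : ℕ} {W : Submodule F (P d → F)} (hW : MemE d F (2 * (k + 1)) W) :
    Nat.card {v : W // res (plusQ d F) W v = 0} * Fintype.card F
      = Fintype.card F ^ (k + 1)
        + Fintype.card F ^ 2 * ((Fintype.card F ^ k - 1) * Fintype.card F ^ k) := by
  have hS : Sep (res (plusQ d F) W) := sep_of_meme hW
  rcases exists_hyp_even k W (res (plusQ d F) W) hW.1 hS with
    ⟨e, f, hH⟩ | ⟨e, f, x, y, ζ, hH, hE, horth⟩
  · exfalso
    apply hW.2.2
    have hli : LinearIndependent F e := by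
      have h := linearIndependent_hyp hH (fun t : Fin 0 => t.elim0)
        linearIndependent_empty_type (fun _ t => t.elim0) (fun _ t => t.elim0)
      exact h.comp (Sum.inl ∘ Sum.inl) (Sum.inl_injective.comp Sum.inl_injective)
    refine ⟨(Submodule.span F (Set.range e)).map W.subtype, Submodule.map_subtype_le _ _,
      ?_, ?_⟩
    · rintro w ⟨u, hu, rfl⟩
      obtain ⟨c, rfl⟩ := (Submodule.mem_span_range_iff_exists_fun F).mp hu
      have h := q_hyp_sum hH c (fun _ => 0) Finset.univ
      simp only [zero_smul, add_zero, mul_zero, Finset.sum_const_zero] at h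
      exact h
    · rw [Submodule.finrank_map_subtype_eq, finrank_span_eq_card hli, Fintype.card_fin, hW.1]
  · exact card_M (res (plusQ d F) W) hH hE horth hW.1

/-- two elliptic `m`-spaces are isometric (all `q`) -/
theorem iso_of_meme {m : ℕ} (hm2 : 2 ≤ m) (hme : Even m) {W W₀ : Submodule F (P d → F)}
    (hW : MemE d F m W) (hW₀ : MemE d F m W₀) :
    Cfsg.Geo.AreIsometricFor (Cfsg.quadFormPlus d F) W W₀ := by
  obtain ⟨k, rfl⟩ : ∃ k, m = 2 * (k + 1) := by
    obtain ⟨j, hj⟩ := hme
    exact ⟨j - 1, by omega⟩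
  have c1 := card_of_meme hW
  have c2 := card_of_meme hW₀
  have hq0 : 0 < Fintype.card F := Fintype.card_pos
  have hc : Nat.card {v : W // res (plusQ d F) W v = 0}
      = Nat.card {v : W₀ // res (plusQ d F) W₀ v = 0} :=
    Nat.eq_of_mul_eq_mul_right hq0 (c1.trans c2.symm)
  have hS1 : Sep (res (plusQ d F) W) := sep_of_meme hW
  have hS2 : Sep (res (plusQ d F) W₀) := sep_of_meme hW₀
  obtain ⟨j, hj⟩ := exists_iso (res (plusQ d F) W) (res (plusQ d F) W₀) hS1 hS2 hW.1 hW₀.1 hc
  have hjinj := Cfsg.Agent.Lib.Helper8.HypHYPSUB.isom_inj hS1 j hj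
  have hdim : finrank F W = finrank F W₀ := by rw [hW.1, hW₀.1]
  exact ⟨LinearMap.linearEquivOfInjective j hjinj hdim, fun w => hj w⟩

/-- elliptic `m`-spaces are the nondegenerate `m`-spaces isometric to a fixed elliptic one -/
theorem meme_iff_mem {m : ℕ} (hm2 : 2 ≤ m) (hme : Even m) {W₀ : Submodule F (P d → F)}
    (hW₀ : MemE d F m W₀) (W : Submodule F (P d → F)) :
    MemE d F m W ↔ Mem d F m W₀ W := by
  constructor
  · intro hW
    exact ⟨hW.1, hW.2.1, iso_of_meme hm2 hme hW hW₀⟩
  · rintro ⟨h1, h2, e, he⟩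
    refine ⟨h1, h2, ?_⟩
    rintro ⟨T, hTW, hTs, hTd⟩
    apply hW₀.2.2
    refine ⟨((T.comap W.subtype).map (e : ↥W →ₗ[F] ↥W₀)).map W₀.subtype,
      Submodule.map_subtype_le _ _, ?_, ?_⟩
    · rintro w ⟨w₁, ⟨t, ht, rfl⟩, rfl⟩
      show Cfsg.quadFormPlus d F ((e t : ↥W₀) : P d → F) = 0
      rw [he t]
      exact hTs _ ht
    · rw [Submodule.finrank_map_subtype_eq, LinearEquiv.finrank_map_eq,
        (Submodule.comapSubtypeEquivOfLe hTW).finrank_eq, hTd, h1, hW₀.1]

end ell

theorem main (hSub : SubTypeE.{u}) : UCardE.{u} := by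
  intro F _ _ p _ _ d m hm2 hme r _ hr2 hrp U hU hmU hUc
  classical
  obtain ⟨W₀, hW₀U, hW₀E⟩ := (hSub F d m U hU hme hmU).2 hm2
  have hW₀m : Module.finrank F ↥W₀ = m := hW₀E.1
  have hSep : ∀ x : ↥U, (∀ y : ↥U, QuadraticMap.polar (rq d F U) x y = 0) → x = 0 := by
    intro x hx
    by_contra hx0
    have hx0' : (x : P d → F) ≠ 0 := fun h0 => hx0 (Subtype.ext h0)
    obtain ⟨-, z, hz, hz0⟩ := hU (x : P d → F) x.2 hx0'
    exact hz0 (hx ⟨z, hz⟩)
  have hne : ∃ W' : Submodule F ↥U, AMem (rq d F U) (rq d F W₀) W' := by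
    refine ⟨W₀.comap U.subtype, ?_⟩
    rw [amem_iff U m W₀ hW₀m, Submodule.map_comap_subtype, inf_eq_right.mpr hW₀U]
    exact (meme_iff_mem hm2 hme hW₀E W₀).mp hW₀E
  have key := acardi_all F p ↥U (rq d F U) hSep ↥W₀ (rq d F W₀) r hr2 hrp hUc hne
  have hcard : Nat.card {W : Submodule F (P d → F) // MemE d F m W ∧ W ≤ U} =
      Nat.card {W' : Submodule F ↥U // AMem (rq d F U) (rq d F W₀) W'} := by
    refine Nat.card_congr
      { toFun := fun W => ⟨W.1.comap U.subtype, ?_⟩
        invFun := fun W' => ⟨W'.1.map U.subtype,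
          ⟨(meme_iff_mem hm2 hme hW₀E _).mpr ((amem_iff U m W₀ hW₀m W'.1).mp W'.2),
          Submodule.map_subtype_le U W'.1⟩⟩
        left_inv := ?_
        right_inv := ?_ }
    · rw [amem_iff U m W₀ hW₀m, Submodule.map_comap_subtype, inf_eq_right.mpr W.2.2]
      exact (meme_iff_mem hm2 hme hW₀E _).mp W.2.1
    · intro W
      apply Subtype.ext
      show (W.1.comap U.subtype).map U.subtype = W.1
      rw [Submodule.map_comap_subtype, inf_eq_right.mpr W.2.2]
    · intro W'
      apply Subtype.ext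
      show (W'.1.map U.subtype).comap U.subtype = W'.1
      exact Submodule.comap_map_eq_of_injective (Submodule.injective_subtype U) W'.1
  rw [hcard]
  exact key

end Cfsg.Agent.Lib.Helper82.EPUCARDE
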