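import Mathlib
import Cfsg.Agent.H41.FixFree
import Cfsg.Agent.Lib.Helper37.HypStmt2

/-!
# S5992 / INVDIM (call by helper37)

An invariant subspace without fixed vectors of a matrix with `x ^ r = 1` has dimension
divisible by the order of `q` modulo `r`.
-/

set_option autoImplicit false

universe u

open scoped Matrix

namespace Cfsg.Agent.Lib.Helper82.HypINVDIM

open Cfsg.Agent.Lib.Helper37.HypStmt Cfsg.Agent.Lib.Helper37.HypStmt2

theorem main : InvDim.{u} := by
  intro F _ _ p _ _ d r _ _ x hx R hR hfix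
  classical
  have hxr : (Matrix.toLin' (x : Matrix (I d) (I d) F)) ^ r = 1 := by
    have h1 : ((x : Matrix (I d) (I d) F)) ^ r = 1 := by
      have := congrArg (fun g : Matrix.GeneralLinearGroup (I d) F =>
        (g : Matrix (I d) (I d) F)) hx
      simpa using this
    rw [← Matrix.toLin'_pow, h1, Matrix.toLin'_one]
    rfl
  refine Cfsg.Agent.H41.orderOf_dvd_finrank_of_fixedPointFree r
    (Matrix.toLin' (x : Matrix (I d) (I d) F)) hxr R ?_ ?_
  · intro w hw
    exact hR (Submodule.mem_map_of_mem hw)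
  · intro w hw hxw
    have h3 : w ∈ Fx (x : Matrix (I d) (I d) F) := by
      rw [mem_Fx]
      rw [Matrix.toLin'_apply] at hxw
      exact hxw
    have h2 : w ∈ R ⊓ Fx (x : Matrix (I d) (I d) F) := Submodule.mem_inf.2 ⟨hw, h3⟩
    rw [hfix] at h2
    exact (Submodule.mem_bot F).1 h2


end Cfsg.Agent.Lib.Helper82.HypINVDIM
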