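import Mathlib
import Cfsg.Prelude.Def_Blocks
import Cfsg.Agent.Lib.Helper80.DefOneLoc

/-!
# Three counting lemmas on the centralizer of a Sylow subgroup of prime order

`C = C_G(P)` with `P` a Sylow `p`-subgroup of order `p`.  Sums over `C` of functions that are
invariant under translation by `P` are `p` times the sum over the `p`-regular elements.
-/

set_option autoImplicit false

namespace Cfsg.Agent.Lib.Helper82.BrK347

open Cfsg
open scoped ComplexConjugate

universe u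
variable {G : Type u} [Group G]

/-- A `P`-invariant function on `C_G(P)` sums to `p` times its sum over the `p`-regular
elements. -/
theorem sum_eq_p_mul_reg [Finite G] (p : ℕ) [Fact p.Prime] (P : Sylow p G)
    (hP : Nat.card P = p) [Fintype ↥(Subgroup.centralizer ((P : Subgroup G) : Set G))]
    (F : ↥(Subgroup.centralizer ((P : Subgroup G) : Set G)) → ℂ)
    (hF : ∀ x c : ↥(Subgroup.centralizer ((P : Subgroup G) : Set G)),
      (x : G) ∈ (P : Subgroup G) → F (x * c) = F c) :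
    ∑ c, F c = (p : ℂ) * ∑ c : ↥(Subgroup.centralizer ((P : Subgroup G) : Set G)),
      (if p ∣ orderOf c then 0 else F c) := by
  classical
  have : Fintype G := Fintype.ofFinite G
  have : Fintype ↥(P : Subgroup G) := Fintype.ofFinite _
  obtain ⟨π, hπP, hπreg⟩ := Cfsg.Agent.Lib.Helper80.DefOneLoc.exists_proj P hP
  rw [Cfsg.Agent.Lib.Helper80.DefOneLoc.sum_decomp P hP π hπP hπreg F]
  have h1 : ∀ z : ↥(P : Subgroup G),
      ∑ r : ↥(Subgroup.centralizer ((P : Subgroup G) : Set G)),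
        (if p ∣ orderOf r then 0 else F (Cfsg.Agent.Lib.Helper80.DefOneLoc.inc P hP z * r)) =
      ∑ r : ↥(Subgroup.centralizer ((P : Subgroup G) : Set G)),
        (if p ∣ orderOf r then 0 else F r) := by
    intro z
    refine Finset.sum_congr rfl fun r _ => ?_
    rw [hF (Cfsg.Agent.Lib.Helper80.DefOneLoc.inc P hP z) r z.2]
  rw [Finset.sum_congr rfl (fun z _ => h1 z), Finset.sum_const, Finset.card_univ, nsmul_eq_mul,
    ← Nat.card_eq_fintype_card]
  have hP' : Nat.card ↥(P : Subgroup G) = p := hP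
  rw [hP']

/-- Averaging over `P`. -/
theorem avg_sum [Finite G] (p : ℕ) [Fact p.Prime] (P : Sylow p G)
    (hP : Nat.card P = p) [Fintype ↥(Subgroup.centralizer ((P : Subgroup G) : Set G))]
    (Ψ : G → ℂ)
    (φ : ↥(Subgroup.centralizer ((P : Subgroup G) : Set G)) → ℂ)
    (hφ : ∀ x c : ↥(Subgroup.centralizer ((P : Subgroup G) : Set G)),
      (x : G) ∈ (P : Subgroup G) → φ (x * c) = φ c) :
    (p : ℂ) * ∑ c : ↥(Subgroup.centralizer ((P : Subgroup G) : Set G)),
        Ψ (c : G) * conj (φ c) =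
      ∑ c : ↥(Subgroup.centralizer ((P : Subgroup G) : Set G)),
        (∑ᶠ u ∈ ((P : Subgroup G) : Set G), Ψ (u * (c : G))) * conj (φ c) := by
  classical
  have : Fintype G := Fintype.ofFinite G
  have : Fintype ↥(P : Subgroup G) := Fintype.ofFinite _
  have hfs : ∀ c : G, ∑ᶠ u ∈ ((P : Subgroup G) : Set G), Ψ (u * c) =
      ∑ z : ↥(P : Subgroup G), Ψ ((z : G) * c) := by
    intro c
    rw [← finsum_set_coe_eq_finsum_mem, ← finsum_eq_sum_of_fintype]
    rfl
  have h1 : ∀ z : ↥(P : Subgroup G),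
      ∑ c : ↥(Subgroup.centralizer ((P : Subgroup G) : Set G)),
        Ψ ((z : G) * (c : G)) * conj (φ c) =
      ∑ c : ↥(Subgroup.centralizer ((P : Subgroup G) : Set G)), Ψ (c : G) * conj (φ c) := by
    intro z
    refine Fintype.sum_equiv (Equiv.mulLeft (Cfsg.Agent.Lib.Helper80.DefOneLoc.inc P hP z)) _ _
      fun c => ?_
    show Ψ ((z : G) * (c : G)) * conj (φ c) =
      Ψ ((Cfsg.Agent.Lib.Helper80.DefOneLoc.inc P hP z * c :
        ↥(Subgroup.centralizer ((P : Subgroup G) : Set G))) : G) *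
        conj (φ (Cfsg.Agent.Lib.Helper80.DefOneLoc.inc P hP z * c))
    rw [hφ (Cfsg.Agent.Lib.Helper80.DefOneLoc.inc P hP z) c z.2]
    rfl
  calc (p : ℂ) * ∑ c : ↥(Subgroup.centralizer ((P : Subgroup G) : Set G)),
        Ψ (c : G) * conj (φ c)
      = ∑ z : ↥(P : Subgroup G), ∑ c : ↥(Subgroup.centralizer ((P : Subgroup G) : Set G)),
          Ψ ((z : G) * (c : G)) * conj (φ c) := by
        rw [Finset.sum_congr rfl (fun z _ => h1 z), Finset.sum_const, Finset.card_univ,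
          nsmul_eq_mul, ← Nat.card_eq_fintype_card]
        have hP' : Nat.card ↥(P : Subgroup G) = p := hP
        rw [hP']
    _ = ∑ c : ↥(Subgroup.centralizer ((P : Subgroup G) : Set G)),
          (∑ᶠ u ∈ ((P : Subgroup G) : Set G), Ψ (u * (c : G))) * conj (φ c) := by
        rw [Finset.sum_comm]
        refine Finset.sum_congr rfl fun c _ => ?_
        rw [hfs (c : G), Finset.sum_mul]

/-- [K3] -/
theorem inner_res_congr_of_avg [Finite G] (p : ℕ) [Fact p.Prime] (P : Sylow p G)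
    (hP : Nat.card P = p) [Fintype ↥(Subgroup.centralizer ((P : Subgroup G) : Set G))]
    (Φ Φ' : G → ℂ)
    (h : ∀ c : G, c ∈ Subgroup.centralizer ((P : Subgroup G) : Set G) →
      ∑ᶠ u ∈ ((P : Subgroup G) : Set G), Φ (u * c) =
        ∑ᶠ u ∈ ((P : Subgroup G) : Set G), Φ' (u * c))
    (φ : ↥(Subgroup.centralizer ((P : Subgroup G) : Set G)) → ℂ)
    (hφ : ∀ x c : ↥(Subgroup.centralizer ((P : Subgroup G) : Set G)),
      (x : G) ∈ (P : Subgroup G) → φ (x * c) = φ c) :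
    classInner (fun c : ↥(Subgroup.centralizer ((P : Subgroup G) : Set G)) => Φ (c : G)) φ =
      classInner (fun c : ↥(Subgroup.centralizer ((P : Subgroup G) : Set G)) => Φ' (c : G)) φ := by
  have hp : p.Prime := Fact.out
  have hp0 : (p : ℂ) ≠ 0 := Nat.cast_ne_zero.mpr hp.ne_zero
  have e1 := avg_sum p P hP Φ φ hφ
  have e2 := avg_sum p P hP Φ' φ hφ
  have e3 : (p : ℂ) * ∑ c : ↥(Subgroup.centralizer ((P : Subgroup G) : Set G)),
        Φ (c : G) * conj (φ c) =
      (p : ℂ) * ∑ c : ↥(Subgroup.centralizer ((P : Subgroup G) : Set G)),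
        Φ' (c : G) * conj (φ c) := by
    rw [e1, e2]
    refine Finset.sum_congr rfl fun c _ => ?_
    rw [h (c : G) c.2]
  unfold classInner
  rw [mul_left_cancel₀ hp0 e3]

/-- [K4] -/
theorem trivial_root_relation [Finite G] (p : ℕ) [Fact p.Prime] (P : Sylow p G)
    (hP : Nat.card P = p) [Fintype ↥(Subgroup.centralizer ((P : Subgroup G) : Set G))]
    (X Y : Finset (IrrCharacter G)) (ε : IrrCharacter G → ℤ) (ε' : ℤ)
    (hXY : X.card * Y.card = p - 1)
    (hε : ∀ ξ ∈ X, ε ξ = 1 ∨ ε ξ = -1) (hε' : ε' = 1 ∨ ε' = -1)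
    (hXsing : ∀ ξ ∈ X, ∀ g : G, p ∣ orderOf g → (ξ : G → ℂ) g = (ε ξ : ℂ))
    (hYsing : ∀ g : G, p ∣ orderOf g → ∑ η ∈ Y, (η : G → ℂ) g = -(ε' : ℂ))
    (hreg : ∀ g : G, ¬ p ∣ orderOf g → ∀ η ∈ Y,
      ∑ ξ ∈ X, (ε ξ : ℂ) * (ξ : G → ℂ) g = (ε' : ℂ) * (η : G → ℂ) g)
    (φ : ↥(Subgroup.centralizer ((P : Subgroup G) : Set G)) → ℂ)
    (hφ : ∀ x c : ↥(Subgroup.centralizer ((P : Subgroup G) : Set G)),
      (x : G) ∈ (P : Subgroup G) → φ (x * c) = φ c) :
    (Y.card : ℂ) * ∑ ξ ∈ X, (ε ξ : ℂ) *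
        classInner (fun c : ↥(Subgroup.centralizer ((P : Subgroup G) : Set G)) =>
          (ξ : G → ℂ) (c : G)) φ -
      (ε' : ℂ) * ∑ η ∈ Y,
        classInner (fun c : ↥(Subgroup.centralizer ((P : Subgroup G) : Set G)) =>
          (η : G → ℂ) (c : G)) φ =
      ((p : ℂ) - 1) *
        classInner (fun _ : ↥(Subgroup.centralizer ((P : Subgroup G) : Set G)) => (1 : ℂ)) φ := by
  classical
  have hp : p.Prime := Fact.out
  have hXYc : (X.card : ℂ) * (Y.card : ℂ) = (p : ℂ) - 1 := by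
    have := congrArg (Nat.cast : ℕ → ℂ) hXY
    rw [Nat.cast_mul, Nat.cast_pred hp.pos] at this
    exact this
  have hε'2 : (ε' : ℂ) * (ε' : ℂ) = 1 := by
    rcases hε' with h | h <;> simp [h]
  have hεsq : ∀ ξ ∈ X, (ε ξ : ℂ) * (ε ξ : ℂ) = 1 := by
    intro ξ hξ
    rcases hε ξ hξ with h | h <;> simp [h]
  -- the pointwise value of the combination
  have hT : ∀ c : ↥(Subgroup.centralizer ((P : Subgroup G) : Set G)),
      (Y.card : ℂ) * ∑ ξ ∈ X, (ε ξ : ℂ) * (ξ : G → ℂ) (c : G) -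
        (ε' : ℂ) * ∑ η ∈ Y, (η : G → ℂ) (c : G) =
      if p ∣ orderOf c then (p : ℂ) else 0 := by
    intro c
    by_cases hc : p ∣ orderOf c
    · have hc' : p ∣ orderOf (c : G) := by rwa [Subgroup.orderOf_coe]
      rw [if_pos hc, hYsing (c : G) hc']
      have h1 : ∑ ξ ∈ X, (ε ξ : ℂ) * (ξ : G → ℂ) (c : G) = (X.card : ℂ) := by
        have h0 : ∑ ξ ∈ X, (ε ξ : ℂ) * (ξ : G → ℂ) (c : G) = ∑ _ξ ∈ X, (1 : ℂ) :=
          Finset.sum_congr rfl (fun ξ hξ => by
            rw [hXsing ξ hξ (c : G) hc']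
            exact hεsq ξ hξ)
        rw [h0, Finset.sum_const, nsmul_eq_mul, mul_one]
      rw [h1]
      linear_combination hXYc + hε'2
    · have hc' : ¬ p ∣ orderOf (c : G) := by rwa [Subgroup.orderOf_coe]
      rw [if_neg hc]
      have h1 : (Y.card : ℂ) * ∑ ξ ∈ X, (ε ξ : ℂ) * (ξ : G → ℂ) (c : G) =
          (ε' : ℂ) * ∑ η ∈ Y, (η : G → ℂ) (c : G) := by
        calc (Y.card : ℂ) * ∑ ξ ∈ X, (ε ξ : ℂ) * (ξ : G → ℂ) (c : G)
            = ∑ _η ∈ Y, ∑ ξ ∈ X, (ε ξ : ℂ) * (ξ : G → ℂ) (c : G) := by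
              rw [Finset.sum_const, nsmul_eq_mul]
          _ = ∑ η ∈ Y, (ε' : ℂ) * (η : G → ℂ) (c : G) :=
              Finset.sum_congr rfl (fun η hη => hreg (c : G) hc' η hη)
          _ = (ε' : ℂ) * ∑ η ∈ Y, (η : G → ℂ) (c : G) := by rw [Finset.mul_sum]
      rw [h1, sub_self]
  -- assemble the sums
  have hA : ∀ S : Finset (IrrCharacter G), ∀ w : IrrCharacter G → ℂ,
      ∑ ξ ∈ S, w ξ * classInner (fun c : ↥(Subgroup.centralizer ((P : Subgroup G) : Set G)) =>
          (ξ : G → ℂ) (c : G)) φ =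
      (Nat.card ↥(Subgroup.centralizer ((P : Subgroup G) : Set G)) : ℂ)⁻¹ *
        ∑ c : ↥(Subgroup.centralizer ((P : Subgroup G) : Set G)),
          (∑ ξ ∈ S, w ξ * (ξ : G → ℂ) (c : G)) * conj (φ c) := by
    intro S w
    unfold classInner
    rw [Finset.sum_congr rfl (fun c _ => Finset.sum_mul _ _ _), Finset.sum_comm, Finset.mul_sum]
    refine Finset.sum_congr rfl fun ξ _ => ?_
    rw [Finset.mul_sum, Finset.mul_sum, Finset.mul_sum]
    refine Finset.sum_congr rfl fun c _ => ?_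
    ring
  have hA1 := hA X (fun ξ => (ε ξ : ℂ))
  have hA2 := hA Y (fun _ => (1 : ℂ))
  simp only [one_mul] at hA2
  rw [hA1, hA2]
  have hkey := sum_eq_p_mul_reg p P hP (fun c => conj (φ c)) (fun x c hx => by
    show conj (φ (x * c)) = conj (φ c)
    rw [hφ x c hx])
  have hsum : ∑ c : ↥(Subgroup.centralizer ((P : Subgroup G) : Set G)),
      ((Y.card : ℂ) * ∑ ξ ∈ X, (ε ξ : ℂ) * (ξ : G → ℂ) (c : G) -
        (ε' : ℂ) * ∑ η ∈ Y, (η : G → ℂ) (c : G)) * conj (φ c) =
      ((p : ℂ) - 1) * ∑ c : ↥(Subgroup.centralizer ((P : Subgroup G) : Set G)), conj (φ c) := by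
    rw [Finset.sum_congr rfl (fun c _ => by rw [hT c])]
    have h2 : ∀ c : ↥(Subgroup.centralizer ((P : Subgroup G) : Set G)),
        (if p ∣ orderOf c then (p : ℂ) else 0) * conj (φ c) =
          (p : ℂ) * conj (φ c) - (p : ℂ) * (if p ∣ orderOf c then 0 else conj (φ c)) := by
      intro c
      by_cases hc : p ∣ orderOf c
      · rw [if_pos hc, if_pos hc]; ring
      · rw [if_neg hc, if_neg hc]; ring
    rw [Finset.sum_congr rfl (fun c _ => h2 c), Finset.sum_sub_distrib, ← Finset.mul_sum,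
      ← Finset.mul_sum, ← hkey]
    ring
  have hsplit : ∀ c : ↥(Subgroup.centralizer ((P : Subgroup G) : Set G)),
      ((Y.card : ℂ) * ∑ ξ ∈ X, (ε ξ : ℂ) * (ξ : G → ℂ) (c : G) -
        (ε' : ℂ) * ∑ η ∈ Y, (η : G → ℂ) (c : G)) * conj (φ c) =
      (Y.card : ℂ) * ((∑ ξ ∈ X, (ε ξ : ℂ) * (ξ : G → ℂ) (c : G)) * conj (φ c)) -
        (ε' : ℂ) * ((∑ η ∈ Y, (η : G → ℂ) (c : G)) * conj (φ c)) := by
    intro c; ring
  rw [Finset.sum_congr rfl (fun c _ => hsplit c), Finset.sum_sub_distrib, ← Finset.mul_sum,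
    ← Finset.mul_sum] at hsum
  unfold classInner
  simp only [one_mul]
  linear_combination
    (Nat.card ↥(Subgroup.centralizer ((P : Subgroup G) : Set G)) : ℂ)⁻¹ * hsum

open Classical in
/-- [K7c] -/
theorem inner_one_of_const_sing [Finite G] (p : ℕ) [Fact p.Prime] (P : Sylow p G)
    (hP : Nat.card P = p) [Fintype ↥(Subgroup.centralizer ((P : Subgroup G) : Set G))]
    (ξ : G → ℂ) (e : ℂ)
    (hξ : ∀ c : ↥(Subgroup.centralizer ((P : Subgroup G) : Set G)), p ∣ orderOf c →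
      ξ (c : G) = e) :
    (p : ℂ) * classInner (fun c : ↥(Subgroup.centralizer ((P : Subgroup G) : Set G)) => ξ (c : G))
        (fun _ => (1 : ℂ)) =
      classInner (fun c : ↥(Subgroup.centralizer ((P : Subgroup G) : Set G)) => ξ (c : G))
        (fun c : ↥(Subgroup.centralizer ((P : Subgroup G) : Set G)) =>
          if p ∣ orderOf c then (0 : ℂ) else (p : ℂ)) + e * ((p : ℂ) - 1) := by
  have hp : p.Prime := Fact.out
  have hp0 : (p : ℂ) ≠ 0 := Nat.cast_ne_zero.mpr hp.ne_zero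
  have hN0 : (Nat.card ↥(Subgroup.centralizer ((P : Subgroup G) : Set G)) : ℂ) ≠ 0 :=
    Nat.cast_ne_zero.mpr Nat.card_pos.ne'
  have hkey := sum_eq_p_mul_reg p P hP (fun _ => (1 : ℂ)) (fun _ _ _ => rfl)
  rw [Finset.sum_const, Finset.card_univ, nsmul_eq_mul, mul_one,
    ← Nat.card_eq_fintype_card] at hkey
  unfold classInner
  have h1 : ∀ c : ↥(Subgroup.centralizer ((P : Subgroup G) : Set G)),
      ξ (c : G) * conj (if p ∣ orderOf c then (0 : ℂ) else (p : ℂ)) =
        (p : ℂ) * (if p ∣ orderOf c then 0 else ξ (c : G)) := by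
    intro c
    by_cases hc : p ∣ orderOf c
    · rw [if_pos hc, if_pos hc, map_zero]; ring
    · rw [if_neg hc, if_neg hc, Complex.conj_natCast]; ring
  have h2 : ∀ c : ↥(Subgroup.centralizer ((P : Subgroup G) : Set G)),
      ξ (c : G) * conj (1 : ℂ) =
        (if p ∣ orderOf c then 0 else ξ (c : G)) + e * (1 - (if p ∣ orderOf c then 0 else 1)) := by
    intro c
    by_cases hc : p ∣ orderOf c
    · rw [if_pos hc, if_pos hc, map_one, hξ c hc]; ring
    · rw [if_neg hc, if_neg hc, map_one]; ring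
  rw [Finset.sum_congr rfl (fun c _ => h1 c), Finset.sum_congr rfl (fun c _ => h2 c),
    Finset.sum_add_distrib, ← Finset.mul_sum, ← Finset.mul_sum, Finset.sum_sub_distrib,
    Finset.sum_const, Finset.card_univ, nsmul_eq_mul, mul_one, ← Nat.card_eq_fintype_card]
  set N : ℂ := (Nat.card ↥(Subgroup.centralizer ((P : Subgroup G) : Set G)) : ℂ) with hN
  set R : ℂ := ∑ c : ↥(Subgroup.centralizer ((P : Subgroup G) : Set G)),
    (if p ∣ orderOf c then (0 : ℂ) else 1) with hR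
  have hNR : N = (p : ℂ) * R := hkey
  have hR0 : R ≠ 0 := by
    intro h
    rw [h, mul_zero] at hNR
    exact hN0 hNR
  rw [hNR]
  field_simp

end Cfsg.Agent.Lib.Helper82.BrK347
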