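import Mathlib
import Cfsg.Agent.S0019
import Cfsg.Agent.Lib.Helper25.ACStmt

/-!
# S3912 / EXV (helper82)

`Q` solvable without nontrivial normal subgroups of odd order, `z` its unique involution,
`Q ≠ {1, z}`: a normal 2-subgroup `V ⊋ {1, z}` with all squares in `{1, z}`.
-/

set_option autoImplicit false

namespace Cfsg.Agent.Lib.Helper82.ACEXV

open Cfsg.Agent.Lib.Helper25.ACStmt

universe u

/-- the elements of order `≤ 2` in the centre of `N` -/
def omegaCenter {G : Type u} [Group G] (N : Subgroup G) : Subgroup G where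
  carrier := {x | x ∈ N ∧ x ^ 2 = 1 ∧ ∀ y ∈ N, x * y = y * x}
  mul_mem' := by
    rintro a b ⟨ha, ha2, hac⟩ ⟨hb, hb2, hbc⟩
    refine ⟨mul_mem ha hb, ?_, ?_⟩
    · have h1 : a * b = b * a := hac b hb
      calc (a * b) ^ 2 = a * (b * a) * b := by rw [pow_two]; group
        _ = a * (a * b) * b := by rw [h1]
        _ = a ^ 2 * b ^ 2 := by simp only [pow_two, mul_assoc]
        _ = 1 := by rw [ha2, hb2, mul_one]
    · intro y hy
      rw [mul_assoc, hbc y hy, ← mul_assoc, hac y hy, mul_assoc]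
  one_mem' := ⟨one_mem _, one_pow _, fun y _ => by rw [one_mul, mul_one]⟩
  inv_mem' := by
    rintro a ⟨ha, ha2, hac⟩
    refine ⟨inv_mem ha, by rw [inv_pow, ha2, inv_one], ?_⟩
    intro y hy
    have h1 := hac y hy
    calc a⁻¹ * y = a⁻¹ * (y * a) * a⁻¹ := by group
      _ = a⁻¹ * (a * y) * a⁻¹ := by rw [h1]
      _ = y * a⁻¹ := by group

theorem omegaCenter_normal {G : Type u} [Group G] (N : Subgroup G) (hN : N.Normal) :
    (omegaCenter N).Normal := by
  constructor
  rintro x ⟨hx, hx2, hxc⟩ g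
  refine ⟨hN.conj_mem x hx g, by rw [conj_pow, hx2, mul_one, mul_inv_cancel], ?_⟩
  intro y hy
  have h1 : g⁻¹ * y * g ∈ N := by simpa using hN.conj_mem y hy g⁻¹
  have h2 := hxc _ h1
  calc g * x * g⁻¹ * y = g * (x * (g⁻¹ * y * g)) * g⁻¹ := by group
    _ = g * ((g⁻¹ * y * g) * x) * g⁻¹ := by rw [h2]
    _ = y * (g * x * g⁻¹) := by group

theorem omegaCenter_ne_bot {G : Type u} [Group G] [Finite G] (N : Subgroup G) (hN : IsPGroup 2 ↥N)
    (hne : N ≠ ⊥) : ∃ c ∈ omegaCenter N, c ≠ 1 := by
  have hNt : Nontrivial ↥N := (Subgroup.nontrivial_iff_ne_bot N).mpr hne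
  have hc : Nontrivial (Subgroup.center ↥N) := hN.center_nontrivial
  have hcp : IsPGroup 2 (Subgroup.center ↥N) := hN.to_subgroup _
  obtain ⟨n, hn0, hn⟩ := hcp.nontrivial_iff_card.mp hc
  have hdvd : 2 ∣ Nat.card (Subgroup.center ↥N) := by rw [hn]; exact dvd_pow_self 2 hn0.ne'
  obtain ⟨c, hc⟩ := exists_prime_orderOf_dvd_card' 2 hdvd
  obtain ⟨hc2, hc1⟩ := orderOf_eq_prime_iff.mp hc
  have hcm : ∀ g : ↥N, g * (c : ↥N) = (c : ↥N) * g := Subgroup.mem_center_iff.mp c.2
  have e2 : ((c : ↥N) : G) ^ 2 = 1 := by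
    have h := congrArg (fun t : Subgroup.center ↥N => ((t : ↥N) : G)) hc2
    simpa using h
  have e1 : ((c : ↥N) : G) ≠ 1 := by
    intro h
    apply hc1
    apply Subtype.ext
    apply Subtype.ext
    simpa using h
  refine ⟨((c : ↥N) : G), ⟨(c : ↥N).2, e2, ?_⟩, e1⟩
  intro y hy
  have h := congrArg (fun t : ↥N => (t : G)) (hcm ⟨y, hy⟩)
  simpa using h.symm

theorem main : ExV.{u} := by
  intro Q _ _ hsol hodd z hz huniq hex
  have hz2 : z ^ 2 = 1 := by rw [← hz]; exact pow_orderOf_eq_one z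
  have hz1 : z ≠ 1 := by
    intro h
    rw [h, orderOf_one] at hz
    exact absurd hz (by norm_num)
  have hcen : ∀ g : Q, g * z * g⁻¹ = z := by
    intro g
    apply huniq
    rw [orderOf_eq_prime_iff]
    refine ⟨by rw [conj_pow, hz2, mul_one, mul_inv_cancel], ?_⟩
    intro h
    apply hz1
    have h3 : z = g⁻¹ * (g * z * g⁻¹) * g := by group
    rw [h3, h]
    group
  have hmemZ : ∀ x : Q, x ∈ Subgroup.zpowers z ↔ x = 1 ∨ x = z := by
    intro x
    constructor
    · rintro ⟨k, rfl⟩
      have h1 : z ^ k = z ^ (k % (orderOf z : ℤ)) := (zpow_mod_orderOf z k).symm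
      rw [hz] at h1
      rcases Int.emod_two_eq_zero_or_one k with h | h
      · left
        change z ^ k = 1
        rw [h1]
        simp [h]
      · right
        change z ^ k = z
        rw [h1]
        simp [h]
    · rintro (h | h)
      · rw [h]; exact one_mem _
      · rw [h]; exact Subgroup.mem_zpowers z
  have hZn : (Subgroup.zpowers z).Normal := by
    constructor
    intro n hn g
    rw [hmemZ] at hn ⊢
    rcases hn with rfl | rfl
    · left; simp
    · right; exact hcen g
  have hZcard : Nat.card ↥(Subgroup.zpowers z) = 2 := by rw [Nat.card_zpowers, hz]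
  have hsolq : Group.IsSolvable (Q ⧸ Subgroup.zpowers z) := inferInstance
  have hnt : Nontrivial (Q ⧸ Subgroup.zpowers z) := by
    obtain ⟨x, hx1, hxz⟩ := hex
    refine ⟨⟨(x : Q ⧸ Subgroup.zpowers z), 1, ?_⟩⟩
    intro h
    have h2 := (QuotientGroup.eq_one_iff x).mp h
    rcases (hmemZ x).mp h2 with h3 | h3
    · exact hx1 h3
    · exact hxz h3
  obtain ⟨s, hs, Nt, hNtn, hNtp, hNtne⟩ :=
    Cfsg.Agent.S0019.exists_normal_pgroup (Q ⧸ Subgroup.zpowers z)
  by_cases hs2 : s = 2
  · subst hs2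
    obtain ⟨c, hcV, hc1⟩ := omegaCenter_ne_bot Nt hNtp hNtne
    have hVn : (omegaCenter Nt).Normal := omegaCenter_normal Nt hNtn
    have hsq : ∀ v ∈ (omegaCenter Nt).comap (QuotientGroup.mk' (Subgroup.zpowers z)),
        v ^ 2 = 1 ∨ v ^ 2 = z := by
      intro v hv
      have h1 : (QuotientGroup.mk' (Subgroup.zpowers z) v) ^ 2 = 1 := hv.2.1
      rw [← map_pow] at h1
      have h2 : v ^ 2 ∈ Subgroup.zpowers z := (QuotientGroup.eq_one_iff _).mp h1
      exact (hmemZ _).mp h2
    refine ⟨(omegaCenter Nt).comap (QuotientGroup.mk' (Subgroup.zpowers z)), hVn.comap _, ?_, ?_,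
      hsq⟩
    · rintro ⟨v, hv⟩
      refine ⟨2, ?_⟩
      apply Subtype.ext
      have h4 : v ^ (2 ^ 2) = (v ^ 2) ^ 2 := by rw [← pow_mul]; norm_num
      have h5 : v ^ (2 ^ 2) = 1 := by
        rw [h4]
        rcases hsq v hv with h | h
        · rw [h, one_pow]
        · rw [h, hz2]
      simpa using h5
    · obtain ⟨v, rfl⟩ := QuotientGroup.mk'_surjective (Subgroup.zpowers z) c
      refine ⟨v, hcV, ?_, ?_⟩
      · rintro rfl
        exact hc1 (map_one _)
      · rintro rfl
        apply hc1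
        exact (QuotientGroup.eq_one_iff _).mpr (Subgroup.mem_zpowers v)
  · exfalso
    have hsF : Fact s.Prime := ⟨hs⟩
    have hsodd : Odd s := hs.eq_two_or_odd'.resolve_left hs2
    have hYn : (Nt.comap (QuotientGroup.mk' (Subgroup.zpowers z))).Normal := hNtn.comap _
    have hNt : Nontrivial ↥Nt := (Subgroup.nontrivial_iff_ne_bot Nt).mpr hNtne
    obtain ⟨k, hk0, hk⟩ := hNtp.nontrivial_iff_card.mp hNt
    have hYcard : Nat.card ↥(Nt.comap (QuotientGroup.mk' (Subgroup.zpowers z))) = 2 * s ^ k := by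
      have h1 : (Nt.comap (QuotientGroup.mk' (Subgroup.zpowers z))).index = Nt.index :=
        Subgroup.index_comap_of_surjective Nt (QuotientGroup.mk'_surjective (Subgroup.zpowers z))
      have h2 := Subgroup.card_mul_index (Nt.comap (QuotientGroup.mk' (Subgroup.zpowers z)))
      have h3 := Subgroup.card_mul_index Nt
      have h4 := Subgroup.card_eq_card_quotient_mul_card_subgroup (Subgroup.zpowers z)
      have h5 : Nt.index ≠ 0 := Subgroup.index_ne_zero_of_finite
      rw [h1] at h2
      rw [h4, ← h3, hZcard, hk] at h2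
      have h6 : Nat.card ↥(Nt.comap (QuotientGroup.mk' (Subgroup.zpowers z))) * Nt.index
          = (2 * s ^ k) * Nt.index := by rw [h2]; ring
      exact Nat.eq_of_mul_eq_mul_right (Nat.pos_of_ne_zero h5) h6
    obtain ⟨P⟩ : Nonempty (Sylow s ↥(Nt.comap (QuotientGroup.mk' (Subgroup.zpowers z)))) :=
      inferInstance
    have hPcard : Nat.card ↥(P : Subgroup ↥(Nt.comap (QuotientGroup.mk' (Subgroup.zpowers z))))
        = s ^ k := by
      rw [P.card_eq_multiplicity, hYcard]
      congr 1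
      rw [Nat.factorization_mul (by norm_num) (pow_ne_zero _ hs.ne_zero), Finsupp.add_apply,
        hs.factorization_pow, Finsupp.single_eq_same, Nat.factorization_eq_zero_of_not_dvd,
        zero_add]
      intro h
      exact hs2 ((Nat.prime_dvd_prime_iff_eq hs Nat.prime_two).mp h)
    have hPidx : (P : Subgroup ↥(Nt.comap (QuotientGroup.mk' (Subgroup.zpowers z)))).index
        = 2 := by
      have h := Subgroup.card_mul_index
        (P : Subgroup ↥(Nt.comap (QuotientGroup.mk' (Subgroup.zpowers z))))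
      rw [hPcard, hYcard] at h
      have h6 : s ^ k * (P : Subgroup ↥(Nt.comap (QuotientGroup.mk' (Subgroup.zpowers z)))).index
          = s ^ k * 2 := by rw [h]; ring
      exact Nat.eq_of_mul_eq_mul_left (pow_pos hs.pos k) h6
    have hPn : (P : Subgroup ↥(Nt.comap (QuotientGroup.mk' (Subgroup.zpowers z)))).Normal :=
      Subgroup.normal_of_index_eq_two hPidx
    have hPc : (P : Subgroup ↥(Nt.comap (QuotientGroup.mk' (Subgroup.zpowers z)))).Characteristic :=
      P.characteristic_of_normal hPn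
    have hSn : ((P : Subgroup ↥(Nt.comap (QuotientGroup.mk' (Subgroup.zpowers z)))).map
        (Nt.comap (QuotientGroup.mk' (Subgroup.zpowers z))).subtype).Normal :=
      ConjAct.normal_of_characteristic_of_normal
    have hScard : Nat.card ↥((P : Subgroup ↥(Nt.comap (QuotientGroup.mk' (Subgroup.zpowers z)))).map
        (Nt.comap (QuotientGroup.mk' (Subgroup.zpowers z))).subtype) = s ^ k := by
      rw [Subgroup.card_subtype, hPcard]
    have hS := hodd _ hSn (by rw [hScard]; exact hsodd.pow)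
    rw [hS, Subgroup.card_bot] at hScard
    have h7 : 1 < s ^ k := Nat.one_lt_pow hk0.ne' hs.one_lt
    omega

end Cfsg.Agent.Lib.Helper82.ACEXV
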