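import Mathlib
import Cfsg.Prelude.Def_Blocks
import Cfsg.Agent.Lib.Helper82.Contrib
import Cfsg.Agent.Lib.CT.DefectZeroBlock
import Cfsg.Agent.Lib.Helper75.NumMinMax
import Cfsg.Agent.Lib.Helper16.Defect
import Cfsg.Agent.Lib.Helper80.Integrality

/-!
# Blocks whose characters agree on the `p`-regular elements

If all irreducible characters of a `p`-block `B` agree on the `p`-regular elements, then the
number of characters of `B` equals the order of a defect group.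
Namespace `Cfsg.Agent.Lib.Helper82.AgreeDefect`.
-/

set_option autoImplicit false

namespace Cfsg.Agent.Lib.Helper82.AgreeDefect

open Cfsg Cfsg.Agent.Lib.Helper77.LocalRing Cfsg.Agent.Lib.Helper82.Contrib
  Cfsg.Agent.Lib.CT.Wedderburn

universe u

/-- A pure arithmetic step: `p^(ν+d) = k c`, `p^ν ∣ c`, `p^(ν+1) ∤ c` force `k = p^d`. -/
theorem arith_step (p : ℕ) (hp : p.Prime) (ν d k : ℕ) (c : ℤ)
    (hmain : ((p ^ (ν + d) : ℕ) : ℤ) = (k : ℤ) * c) (hdv : (p : ℤ) ^ ν ∣ c)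
    (hndv : ¬ (p : ℤ) ^ (ν + 1) ∣ c) : p ^ d = k := by
  obtain ⟨c', rfl⟩ := hdv
  have hp0 : (p : ℤ) ≠ 0 := by exact_mod_cast hp.ne_zero
  have hpν : (p : ℤ) ^ ν ≠ 0 := pow_ne_zero _ hp0
  have hnd : ¬ (p : ℤ) ∣ c' := by
    intro hdiv
    apply hndv
    rw [pow_succ]
    exact mul_dvd_mul_left _ hdiv
  have h2 : ((p : ℤ) ^ d) = (k : ℤ) * c' := by
    apply mul_left_cancel₀ hpν
    have : ((p ^ (ν + d) : ℕ) : ℤ) = (p : ℤ) ^ ν * (p : ℤ) ^ d := by push_cast; ring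
    rw [← this, hmain]; ring
  have hpos : (0 : ℤ) < (p : ℤ) ^ d := by
    have : (0 : ℤ) < (p : ℤ) := by exact_mod_cast hp.pos
    exact pow_pos this d
  have hc'pos : 0 < c' := by
    rw [h2] at hpos
    have hk : (0 : ℤ) ≤ (k : ℤ) := Int.natCast_nonneg k
    by_contra hneg
    push Not at hneg
    have : (k : ℤ) * c' ≤ 0 := mul_nonpos_of_nonneg_of_nonpos hk hneg
    omega
  -- `c'` divides `p^d` and is prime to `p`, hence `c' = 1`
  have hdvd : c'.natAbs ∣ p ^ d := by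
    have h3 : c' ∣ (p : ℤ) ^ d := ⟨(k : ℤ), by rw [h2]; ring⟩
    have h4 := Int.natAbs_dvd_natAbs.mpr h3
    rwa [Int.natAbs_pow, Int.natAbs_natCast] at h4
  obtain ⟨j, -, hj⟩ := (Nat.dvd_prime_pow hp).1 hdvd
  have hj0 : j = 0 := by
    by_contra hj0
    apply hnd
    have h5 : p ∣ c'.natAbs := by
      rw [hj]; exact dvd_pow_self p hj0
    exact Int.natCast_dvd.mpr h5
  rw [hj0, pow_zero] at hj
  have hc'1 : c' = 1 := by
    have := Int.natAbs_of_nonneg hc'pos.le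
    rw [hj] at this
    exact_mod_cast this.symm
  rw [hc'1, mul_one] at h2
  exact_mod_cast h2

/-- If the irreducible characters of a block agree on the `p`-regular elements, the block has
exactly `|D|` characters, `D` a defect group. -/
theorem card_defect_of_agree {G : Type u} [Group G] [Finite G] (p : ℕ) [Fact p.Prime]
    (M : Ideal AlgInt) (hM : IsPModular p M)
    (B : Set (IrrCharacter G)) (hB : IsPBlock M B) (D : Subgroup G)
    (hD : IsDefectGroup p M B D)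
    (h : ∀ χ ∈ B, ∀ ψ ∈ B, ∀ x : G, ¬ p ∣ orderOf x → (χ : G → ℂ) x = (ψ : G → ℂ) x) :
    Nat.card D = Nat.card B := by
  classical
  have hpp : p.Prime := Fact.out
  have hMp : M.IsPrime := isPrime_of_isPModular hM
  have := Fintype.ofFinite G
  have := finite_irrCharacter G
  have := Fintype.ofFinite (IrrCharacter G)
  obtain ⟨χ₀, hχ₀⟩ := Cfsg.Agent.Lib.CT.DefectZeroBlock.isPBlock_nonempty hMp hB
  rw [Cfsg.Agent.Lib.Helper16.Defect.card_defectGroup p hM B hB D hD]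
  have h1reg : ¬ p ∣ orderOf (1 : G) := by
    rw [orderOf_one]
    intro h1
    exact hpp.one_lt.ne' (Nat.dvd_one.mp h1)
  have htw : ∀ χ ∈ B, tw p ((p ^ (Nat.card G).factorization p : ℕ) : ℂ) (χ : G → ℂ)
      = tw p ((p ^ (Nat.card G).factorization p : ℕ) : ℂ) (χ₀ : G → ℂ) := by
    intro χ hχ
    funext x
    rw [tw_apply, tw_apply]
    by_cases hx : p ∣ orderOf x
    · simp [hx]
    · simp only [hx, if_false]
      rw [h χ hχ χ₀ hχ₀ x hx]
  have hctr1 : ∀ χ ∈ B, ∀ φ : IrrCharacter G, ctr p χ φ = ctr p χ₀ φ := by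
    intro χ hχ φ
    have h1 := ctr_spec p χ φ
    have h2 := ctr_spec p χ₀ φ
    rw [htw χ hχ] at h1
    have h3 : ((ctr p χ φ : ℤ) : ℂ) = ((ctr p χ₀ φ : ℤ) : ℂ) := by rw [← h1, ← h2]
    exact_mod_cast h3
  have hctr : ∀ χ ∈ B, ∀ φ ∈ B, ctr p χ φ = ctr p χ₀ χ₀ := by
    intro χ hχ φ hφ
    rw [hctr1 χ hχ φ, ctr_symm, hctr1 φ hφ χ₀]
  have hdeg : ∀ ξ ∈ B, charDegree (ξ : G → ℂ) = charDegree (χ₀ : G → ℂ) := by
    intro ξ hξ
    unfold charDegree
    rw [h ξ hξ χ₀ hχ₀ 1 h1reg]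
  -- expansion of `p^a χ₀⁰` at the identity
  have hsum := congrFun (tw_eq_sum p χ₀) 1
  rw [tw_apply, if_neg h1reg, Finset.sum_apply] at hsum
  have hterm : ∀ ψ : IrrCharacter G, ((ctr p χ₀ ψ : ℂ) • (ψ : G → ℂ)) 1
      = if ψ ∈ B then ((ctr p χ₀ χ₀ : ℤ) : ℂ) * (χ₀ : G → ℂ) 1 else 0 := by
    intro ψ
    by_cases hψ : ψ ∈ B
    · rw [if_pos hψ, Pi.smul_apply, smul_eq_mul, hctr χ₀ hχ₀ ψ hψ, h ψ hψ χ₀ hχ₀ 1 h1reg]
    · rw [if_neg hψ, Pi.smul_apply, smul_eq_mul, ctr_eq_zero_of_not_mem p hM B hB χ₀ ψ hχ₀ hψ]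
      simp
  rw [Finset.sum_congr rfl (fun ψ _ => hterm ψ), Finset.sum_ite, Finset.sum_const_zero,
    add_zero, Finset.sum_const, nsmul_eq_mul] at hsum
  have hcardB : (Finset.univ.filter (fun ψ : IrrCharacter G => ψ ∈ B)).card = Nat.card B := by
    rw [Nat.card_eq_fintype_card, Fintype.card_subtype]
  have hχ1 : (χ₀ : G → ℂ) 1 ≠ 0 := by
    rw [Cfsg.Agent.Lib.Helper80.Integrality.apply_one_eq_charDegree (isCharacter_of_irr χ₀.2)]
    exact Nat.cast_ne_zero.mpr (irr_charDegree_pos χ₀.2).ne'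
  have hmain : ((p ^ (Nat.card G).factorization p : ℕ) : ℤ)
      = (Nat.card B : ℤ) * ctr p χ₀ χ₀ := by
    have h3 : ((p ^ (Nat.card G).factorization p : ℕ) : ℂ)
        = (Nat.card B : ℂ) * ((ctr p χ₀ χ₀ : ℤ) : ℂ) := by
      apply mul_right_cancel₀ hχ1
      rw [hsum, hcardB]; ring
    exact_mod_cast h3
  obtain ⟨e, hae, -, ψ, hψ, hψe⟩ :=
    Cfsg.Agent.Lib.Helper75.NumMinMax.exists_defect_data p B ⟨χ₀, hχ₀⟩
  rw [hdeg ψ hψ] at hψe
  rw [hae, ← hψe] at hmain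
  have hdv := pow_dvd_ctr p hM χ₀ χ₀
  have hndv := not_dvd_ctr_of_min p hM B hB χ₀ χ₀ hχ₀ hχ₀
    (fun ξ hξ => le_of_eq (by rw [hdeg ξ hξ]))
  exact arith_step p hpp _ _ _ _ hmain hdv hndv

end Cfsg.Agent.Lib.Helper82.AgreeDefect
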