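import Mathlib
import Cfsg.Agent.Lib.Helper96.AltStmt

set_option autoImplicit false

/-!
# S5165, piece AP: a `PClosed` set of `A_n` containing the elements of order `p` contains all
`p`-elements (given the decomposition statement `Dec`)
-/

namespace Cfsg.Agent.Lib.Helper82.AltAP

open Equiv Cfsg.Agent.Lib.Helper96.AltStmt

theorem main : Cfsg.Agent.Lib.Helper96.AltStmt.AllP := by
  intro hDec n p _ X hX hp k
  induction k with
  | zero =>
    intro y hy
    apply hp
    have hy1 : y = 1 := by simpa using hy
    rw [hy1, one_pow]
  | succ k ih =>
    intro y hy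
    rcases k with _ | k
    · apply hp
      simpa using hy
    · have hy' : (y : Perm (Fin n)) ^ p ^ (k + 1 + 1) = 1 := by
        have := congrArg (Subtype.val) hy
        simpa using this
      obtain ⟨t, m, hym, htp, hmk, hsign, hP⟩ :=
        hDec (Fin n) p (k + 1) (y : Perm (Fin n)) (Nat.succ_le_succ (Nat.zero_le k)) hy'
      have htA : t ∈ alternatingGroup (Fin n) := Equiv.Perm.mem_alternatingGroup.2 hsign
      have hmA : m ∈ alternatingGroup (Fin n) := by
        have hm : m = t⁻¹ * (y : Perm (Fin n)) := by rw [hym]; group
        rw [hm]
        exact mul_mem (inv_mem htA) y.2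
      have htX : (⟨t, htA⟩ : alternatingGroup (Fin n)) ∈ X := by
        apply hp
        apply Subtype.ext
        simpa using htp
      have hmX : (⟨m, hmA⟩ : alternatingGroup (Fin n)) ∈ X := by
        apply ih
        apply Subtype.ext
        simpa using hmk
      have hy2 : y = (⟨t, htA⟩ : alternatingGroup (Fin n)) * ⟨m, hmA⟩ := by
        apply Subtype.ext
        simpa using hym
      rw [hy2]
      refine hX.mul _ htX _ hmX
        ⟨(Subgroup.closure {t, m}).comap (alternatingGroup (Fin n)).subtype,
          hP.comap_of_injective _ (Subgroup.subtype_injective _), ?_, ?_⟩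
      · rw [Subgroup.mem_comap]
        exact Subgroup.subset_closure (by simp)
      · rw [Subgroup.mem_comap]
        exact Subgroup.subset_closure (by simp)

end Cfsg.Agent.Lib.Helper82.AltAP
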