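import Mathlib
import Cfsg.Agent.Lib.Helper96.AltStmt2

set_option autoImplicit false

/-!
# S5165, piece OA: `O_p` of the normalizer of the translations
-/

namespace Cfsg.Agent.Lib.Helper82.AltOA

open Equiv Cfsg.Agent.Lib.Helper96.AltStmt Cfsg.Agent.Lib.Helper96.AltModel
  Cfsg.Agent.Lib.Helper96.AltStmt2

/-- a diagonal element conjugates translations to translations -/
theorem diag_conj (p : ℕ) [Fact p.Prime] {β δ : Type} (s : β → (ZMod p)ˣ) (c : β → ZMod p) :
    mk p δ (1 : Perm β) s (fun _ => 0) * mk p δ 1 (fun _ => 1) c =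
      mk p δ 1 (fun _ => 1) (fun i => (s i : ZMod p) * c i) * mk p δ 1 s (fun _ => 0) := by
  ext x
  rcases x with ⟨i, j⟩ | d
  · simp only [Perm.mul_apply, mk_inl, Perm.coe_one, id_eq, Units.val_one, one_mul, add_zero]
    congr 2
    ring
  · simp

/-- the diagonal elements normalize the translations -/
theorem diag_mem_normalizer (p : ℕ) [Fact p.Prime] {β δ : Type} (s : β → (ZMod p)ˣ) :
    mk p δ (1 : Perm β) s (fun _ => 0) ∈
      Subgroup.normalizer (Tr p β δ : Set (Perm (β × ZMod p ⊕ δ))) := by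
  rw [Subgroup.mem_normalizer_iff]
  intro h
  constructor
  · rintro ⟨c, rfl⟩
    refine ⟨fun i => (s i : ZMod p) * c i, ?_⟩
    rw [diag_conj, mul_inv_cancel_right]
  · rintro ⟨c', hc'⟩
    refine ⟨fun i => (((s i)⁻¹ : (ZMod p)ˣ) : ZMod p) * c' i, ?_⟩
    have h1 : h = (mk p δ (1 : Perm β) s (fun _ => 0))⁻¹ * mk p δ 1 (fun _ => 1) c' *
        mk p δ 1 s (fun _ => 0) := by
      rw [← hc']
      group
    rw [h1]
    have h2 := diag_conj p (δ := δ) s (fun i => (((s i)⁻¹ : (ZMod p)ˣ) : ZMod p) * c' i)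
    have h3 : (fun i => (s i : ZMod p) * ((((s i)⁻¹ : (ZMod p)ˣ) : ZMod p) * c' i)) = c' := by
      funext i
      rw [← mul_assoc, ← Units.val_mul, mul_inv_cancel, Units.val_one, one_mul]
    rw [h3] at h2
    rw [mul_assoc, ← h2, inv_mul_cancel_left]

theorem main : Cfsg.Agent.Lib.Helper96.AltStmt2.CoreTr := by
  intro hNF hPT hSG p _ hp2 β δ _ _ _ _ _ hcard P hP hPN hnorm g hg
  have hp : p.Prime := Fact.out
  have : Fact (2 < p) := ⟨lt_of_le_of_ne hp.two_le (Ne.symm hp2)⟩
  have hneg : (-1 : (ZMod p)ˣ) ≠ 1 := by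
    intro h
    have h1 := congrArg Units.val h
    rw [Units.val_neg, Units.val_one] at h1
    exact ZMod.neg_one_ne_one h1
  -- `p`-elements of the form `mk 1 t b` in `P` have `t = 1`
  have hpel : ∀ (t : β → (ZMod p)ˣ) (b : β → ZMod p), mk p δ (1 : Perm β) t b ∈ P →
      t = fun _ => 1 := by
    intro t b hmem
    obtain ⟨e, he⟩ := hP ⟨_, hmem⟩
    have he' : (mk p δ (1 : Perm β) t b) ^ p ^ e = 1 := by
      have := congrArg Subtype.val he
      simpa using this
    exact hPT p β δ t b e he'
  -- normal form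
  obtain ⟨σ, t, b, ρ, hgform⟩ := hNF p β δ g (hPN hg)
  have hρ : inrPerm p β ρ = (1 : Perm (β × ZMod p ⊕ δ)) := by
    have h1 : ρ = 1 := Equiv.ext fun x => Subsingleton.elim _ _
    rw [h1]
    ext x
    rcases x with x | d
    · simp
    · simp
  rw [hρ, mul_one] at hgform
  have hone : mulPerm p (1 : (ZMod p)ˣ) = 1 := by
    ext x
    show ((1 : (ZMod p)ˣ) : ZMod p) * x = x
    rw [Units.val_one, one_mul]
  have hkey : ∀ i j : β, i ≠ j → σ.symm i = i ∨ σ.symm i = j := by
    intro i j hij
    let s : β → (ZMod p)ˣ := fun k => (if k = i then -1 else 1) * (if k = j then -1 else 1)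
    have hsi : s i = -1 := by simp [s, hij]
    have hsk : ∀ k, k ≠ i → k ≠ j → s k = 1 := by
      intro k h1 h2
      simp [s, h1, h2]
    have hprod : ∏ k, s k = 1 := by
      simp only [s]
      rw [Finset.prod_mul_distrib, Finset.prod_ite_eq', Finset.prod_ite_eq']
      simp
    have hysign : Perm.sign (mk p δ (1 : Perm β) s (fun _ => 0)) = 1 := by
      rw [hSG p hp2 β δ 1 s (fun _ => 0), hprod, hone]
      simp
    have hyN := diag_mem_normalizer p (δ := δ) s
    have h1 := hnorm _ hyN hysign g hg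
    let τ : β → (ZMod p)ˣ := fun m => s m * (s (σ.symm m))⁻¹
    let c : β → ZMod p := fun m => ((s m : ZMod p) - (τ m : ZMod p)) * b (σ.symm m)
    have hid : mk p δ (1 : Perm β) s (fun _ => 0) * g = mk p δ 1 τ c *
        (g * mk p δ (1 : Perm β) s (fun _ => 0)) := by
      rw [hgform]
      ext x
      rcases x with ⟨k, j'⟩ | d
      · simp only [Perm.mul_apply, mk_inl, Perm.coe_one, id_eq, add_zero, τ, c,
          Equiv.symm_apply_apply, Units.val_mul, Units.val_inv_eq_inv_val]
        congr 2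
        have hsk0 : (s k : ZMod p) ≠ 0 := Units.ne_zero _
        field_simp
        ring
      · simp
    have h2 : mk p δ (1 : Perm β) τ c ∈ P := by
      have h3 : mk p δ (1 : Perm β) τ c =
          (mk p δ (1 : Perm β) s (fun _ => 0) * g * (mk p δ (1 : Perm β) s (fun _ => 0))⁻¹) *
            g⁻¹ := by
        rw [hid]
        group
      rw [h3]
      exact mul_mem h1 (inv_mem hg)
    have h3 := hpel τ c h2
    have h4 : s i = s (σ.symm i) := by
      have h5 := congrFun h3 i
      exact mul_inv_eq_one.1 h5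
    by_contra hcon
    rw [not_or] at hcon
    rw [hsi, hsk _ hcon.1 hcon.2] at h4
    exact hneg h4
  have hσ : σ = 1 := by
    have h1 : ∀ i, σ.symm i = i := by
      intro i
      have hc2 : 1 < (Finset.univ.erase i).card := by
        rw [Finset.card_erase_of_mem (Finset.mem_univ i), Finset.card_univ]
        omega
      obtain ⟨j, hj, j', hj', hjj'⟩ := Finset.one_lt_card.1 hc2
      have hji : j ≠ i := (Finset.mem_erase.1 hj).1
      have hj'i : j' ≠ i := (Finset.mem_erase.1 hj').1
      rcases hkey i j (Ne.symm hji) with h | h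
      · exact h
      · rcases hkey i j' (Ne.symm hj'i) with h' | h'
        · exact h'
        · exact absurd (h.symm.trans h') hjj'
    ext i
    have h2 := h1 (σ i)
    rw [Equiv.symm_apply_apply] at h2
    rw [← h2]
    rfl
  rw [hσ] at hgform
  have ht : t = fun _ => 1 := by
    apply hpel t b
    rw [← hgform]
    exact hg
  rw [hgform, ht]
  exact ⟨b, rfl⟩

end Cfsg.Agent.Lib.Helper82.AltOA
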