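import Mathlib
import Cfsg.Agent.Lib.Helper96.AltStmt

set_option autoImplicit false

/-!
# S5165, piece OP: for `p` odd a `PClosed` set of `A_n` with a `p`-cycle contains every element
of order `p`
-/

namespace Cfsg.Agent.Lib.Helper82.AltOP

open Equiv Cfsg.Agent.Lib.Helper96.AltStmt

/-- two commuting elements killed by `p` lie in a common `p`-subgroup -/
theorem exists_pgroup {G : Type} [Group G] (p : ℕ) [Fact p.Prime] (x y : G) (hxy : Commute x y)
    (hx : x ^ p = 1) (hy : y ^ p = 1) :
    ∃ Q : Subgroup G, IsPGroup p Q ∧ x ∈ Q ∧ y ∈ Q := by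
  have hz : ∀ z : G, z ^ p = 1 → IsPGroup p (Subgroup.zpowers z) := by
    intro z hz g
    obtain ⟨g, hg⟩ := g
    obtain ⟨i, rfl⟩ := Subgroup.mem_zpowers_iff.1 hg
    refine ⟨1, ?_⟩
    apply Subtype.ext
    simp only [pow_one, Subgroup.coe_pow, Subgroup.coe_one]
    rw [← zpow_natCast, ← zpow_mul, mul_comm, zpow_mul, zpow_natCast, hz, one_zpow]
  refine ⟨Subgroup.zpowers x ⊔ Subgroup.zpowers y,
    IsPGroup.to_sup_of_normal_right' (hz x hx) (hz y hy) ?_,
    Subgroup.mem_sup_left (Subgroup.mem_zpowers x),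
    Subgroup.mem_sup_right (Subgroup.mem_zpowers y)⟩
  rw [Subgroup.zpowers_le]
  apply Subgroup.centralizer_le_normalizer
  rw [Subgroup.mem_centralizer_iff]
  intro h hh
  obtain ⟨i, rfl⟩ := Subgroup.mem_zpowers_iff.1 hh
  exact ((hxy.zpow_right i).symm).eq

theorem main : Cfsg.Agent.Lib.Helper96.AltStmt.OddOrderP := by
  intro n p _ hp2 hpn X hX hc y hy
  obtain ⟨c, hcX, hcyc, hcard⟩ := hc
  have hp : p.Prime := Fact.out
  have h3 : 3 ≤ p := by
    have := hp.two_le
    omega
  -- every `p`-cycle lies in `X`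
  have key1 : ∀ σ : Perm (Fin n), σ.IsCycle → σ.support.card = p →
      ∃ h : σ ∈ alternatingGroup (Fin n), (⟨σ, h⟩ : alternatingGroup (Fin n)) ∈ X := by
    intro σ hσ hσp
    have hconj : IsConj (c : Perm (Fin n)) σ := hcyc.isConj hσ (by rw [hcard, hσp])
    obtain ⟨ρ, hρ⟩ := isConj_iff.1 hconj
    obtain ⟨u, v, huv, hu, hv⟩ : ∃ u v : Fin n, u ≠ v ∧ (c : Perm (Fin n)) u = u ∧
        (c : Perm (Fin n)) v = v := by
      have hcardc : 1 < ((c : Perm (Fin n)).supportᶜ).card := by
        rw [Finset.card_compl, hcard, Fintype.card_fin]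
        have h4 : p + 2 ≤ p ^ 2 := by nlinarith
        omega
      obtain ⟨u, hu, v, hv, huv⟩ := Finset.one_lt_card.1 hcardc
      refine ⟨u, v, huv, ?_, ?_⟩
      · simpa using hu
      · simpa using hv
    obtain ⟨ρ', hρ'even, hρ'⟩ : ∃ ρ' : Perm (Fin n), Perm.sign ρ' = 1 ∧
        ρ' * (c : Perm (Fin n)) * ρ'⁻¹ = σ := by
      rcases Int.units_eq_one_or (Perm.sign ρ) with h1 | h1
      · exact ⟨ρ, h1, hρ⟩
      · refine ⟨ρ * swap u v, ?_, ?_⟩
        · rw [map_mul, h1, Perm.sign_swap huv]
          rfl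
        · have hdisj : Perm.Disjoint (swap u v) (c : Perm (Fin n)) := by
            intro x
            by_cases hxu : x = u
            · right
              rw [hxu]
              exact hu
            · by_cases hxv : x = v
              · right
                rw [hxv]
                exact hv
              · left
                exact swap_apply_of_ne_of_ne hxu hxv
          have hcomm := hdisj.commute.eq
          rw [mul_inv_rev, swap_inv, ← hρ]
          calc ρ * swap u v * (c : Perm (Fin n)) * (swap u v * ρ⁻¹)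
              = ρ * (swap u v * (c : Perm (Fin n)) * swap u v) * ρ⁻¹ := by group
            _ = ρ * ((c : Perm (Fin n)) * swap u v * swap u v) * ρ⁻¹ := by rw [hcomm]
            _ = ρ * (c : Perm (Fin n)) * ρ⁻¹ := by
              rw [mul_assoc (c : Perm (Fin n)), swap_mul_self, mul_one]
    have hρ'A : ρ' ∈ alternatingGroup (Fin n) := Equiv.Perm.mem_alternatingGroup.2 hρ'even
    have hσA : σ ∈ alternatingGroup (Fin n) := by
      rw [← hρ']
      exact mul_mem (mul_mem hρ'A c.2) (inv_mem hρ'A)
    refine ⟨hσA, ?_⟩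
    have hEq : (⟨σ, hσA⟩ : alternatingGroup (Fin n)) =
        (⟨ρ', hρ'A⟩ : alternatingGroup (Fin n)) * c * (⟨ρ', hρ'A⟩ : alternatingGroup (Fin n))⁻¹ := by
      apply Subtype.ext
      simp [hρ']
    rw [hEq]
    exact hX.conj c hcX _
  -- every permutation killed by `p` lies in `X`
  have key2 : ∀ σ : Perm (Fin n), σ ^ p = 1 →
      ∃ h : σ ∈ alternatingGroup (Fin n), (⟨σ, h⟩ : alternatingGroup (Fin n)) ∈ X := by
    intro σ
    induction σ using Perm.cycle_induction_on with
    | base_one =>
      intro _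
      refine ⟨one_mem _, ?_⟩
      have h1 : c ^ p = 1 := by
        apply Subtype.ext
        rw [Subgroup.coe_pow, Subgroup.coe_one, ← hcard, ← hcyc.orderOf]
        exact pow_orderOf_eq_one _
      have h2 := hX.pow c hcX p
      rw [h1] at h2
      exact h2
    | base_cycles σ hσ =>
      intro hσp
      have hord : orderOf σ = p := by
        have hdvd : orderOf σ ∣ p := orderOf_dvd_of_pow_eq_one hσp
        rcases (Nat.dvd_prime hp).1 hdvd with h1 | h1
        · exact absurd (orderOf_eq_one_iff.1 h1) hσ.ne_one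
        · exact h1
      exact key1 σ hσ (by rw [← hσ.orderOf, hord])
    | induction_disjoint σ τ hd hσ ihσ ihτ =>
      intro hστ
      have h2 : σ ^ p * τ ^ p = 1 := by
        rw [← hd.commute.mul_pow]
        exact hστ
      have h3 := (hd.pow_disjoint_pow p p).mul_eq_one_iff.1 h2
      obtain ⟨hσA, hσX⟩ := ihσ h3.1
      obtain ⟨hτA, hτX⟩ := ihτ h3.2
      refine ⟨mul_mem hσA hτA, ?_⟩
      have hEq : (⟨σ * τ, mul_mem hσA hτA⟩ : alternatingGroup (Fin n)) =
          (⟨σ, hσA⟩ : alternatingGroup (Fin n)) * ⟨τ, hτA⟩ := rfl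
      rw [hEq]
      apply hX.mul _ hσX _ hτX
      apply exists_pgroup p
      · apply Subtype.ext
        exact hd.commute.eq
      · apply Subtype.ext
        exact h3.1
      · apply Subtype.ext
        exact h3.2
  have hy' : (y : Perm (Fin n)) ^ p = 1 := by
    have := congrArg (Subtype.val) hy
    simpa using this
  obtain ⟨h, hmem⟩ := key2 (y : Perm (Fin n)) hy'
  exact hmem

end Cfsg.Agent.Lib.Helper82.AltOP
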