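import Mathlib
import Cfsg.Agent.Lib.Helper96.AltStmt2

set_option autoImplicit false

/-!
# S5165, piece SG: the sign of a monomial permutation
-/

namespace Cfsg.Agent.Lib.Helper82.AltSG

open Equiv Cfsg.Agent.Lib.Helper96.AltStmt Cfsg.Agent.Lib.Helper96.AltModel
  Cfsg.Agent.Lib.Helper96.AltStmt2

theorem main : Cfsg.Agent.Lib.Helper96.AltStmt2.SignMk := by
  intro p _ hp2 β δ _ _ _ _ σ t b
  have hp : p.Prime := Fact.out
  have hodd : Odd p := hp.odd_of_ne_two hp2
  have hpm : ∀ s : ℤˣ, s ^ p = s := by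
    intro s
    rcases Int.units_eq_one_or s with h | h
    · rw [h, one_pow]
    · rw [h, hodd.neg_one_pow]
  have hpm1 : ∀ s : ℤˣ, s ^ p = 1 → s = 1 := by
    intro s hs
    rw [← hpm s]
    exact hs
  have hadd : ∀ c : ZMod p, Perm.sign (Equiv.addRight c : Perm (ZMod p)) = 1 := by
    intro c
    apply hpm1
    rw [← map_pow, Equiv.nsmul_addRight]
    have h0 : p • c = 0 := by
      rw [nsmul_eq_mul, ZMod.natCast_self, zero_mul]
    rw [h0, Equiv.addRight_zero]
    exact map_one _
  have hmul : ∀ u v : (ZMod p)ˣ, mulPerm p (u * v) = mulPerm p u * mulPerm p v := by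
    intro u v
    ext x
    show ((u * v : (ZMod p)ˣ) : ZMod p) * x = (u : ZMod p) * ((v : ZMod p) * x)
    rw [Units.val_mul, mul_assoc]
  have hone : mulPerm p (1 : (ZMod p)ˣ) = 1 := by
    ext x
    show ((1 : (ZMod p)ˣ) : ZMod p) * x = x
    rw [Units.val_one, one_mul]
  let mh : (ZMod p)ˣ →* Perm (ZMod p) :=
    { toFun := mulPerm p, map_one' := hone, map_mul' := hmul }
  have hdec : mkMain p σ t b = (Equiv.prodCongrLeft (fun _ : ZMod p => σ)) *
      (Equiv.prodCongrRight (fun i : β => (Equiv.addRight (b i) : Perm (ZMod p)) *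
        mulPerm p (t i))) := by
    ext x
    · rfl
    · rfl
  show Perm.sign (Perm.sumCongr (mkMain p σ t b) 1) = _
  rw [Perm.sign_sumCongr, map_one, mul_one, hdec, map_mul, Perm.sign_prodCongrLeft,
    Perm.sign_prodCongrRight, Finset.prod_const, Finset.card_univ, ZMod.card, hpm]
  congr 1
  have h1 : ∀ i : β, Perm.sign ((Equiv.addRight (b i) : Perm (ZMod p)) * mulPerm p (t i)) =
      (Perm.sign.comp mh) (t i) := by
    intro i
    rw [map_mul, hadd, one_mul]
    rfl
  rw [Finset.prod_congr rfl (fun i _ => h1 i), ← map_prod]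
  rfl

end Cfsg.Agent.Lib.Helper82.AltSG
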