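import Cfsg.Agent.Lib.Helper82.BlockDim

/-!
# Block components of class functions vanishing on `p`-singular elements

* `coeff_eq_of_sum_eq`: the coefficients of a combination of irreducible characters are unique;
* `block_part_vanish`: if `∑_ψ c ψ * ψ` vanishes on the `p`-singular elements then so does
  `∑_{ψ ∈ B} c ψ * ψ` for every `p`-block `B`;
* `block_sum_eq_tw`: `∑_{χ ∈ B} χ(1) χ = ∑_{ψ ∈ B} ⟨ψ|_P, 1⟩ p^a ψ⁰` (`P` a Sylow `p`-subgroup).
-/

set_option autoImplicit false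
open Cfsg

namespace Cfsg.Agent.Lib.Helper82.BlockProj

open Cfsg.Agent.Lib.Helper82.Contrib
open Cfsg.Agent.Lib.Helper82.BlockDim
open Cfsg.Agent.Lib.Helper77.LocalRing
open scoped ComplexConjugate

universe u
variable {G : Type u} [Group G] [Fintype G]

/-- The coefficients of a linear combination of irreducible characters are determined by it. -/
theorem coeff_eq_of_sum_eq [Fintype (IrrCharacter G)] (a b : IrrCharacter G → ℂ)
    (h : ∀ x : G, ∑ χ : IrrCharacter G, a χ * (χ : G → ℂ) x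
      = ∑ χ : IrrCharacter G, b χ * (χ : G → ℂ) x) (χ : IrrCharacter G) : a χ = b χ := by
  classical
  have key : ∀ c : IrrCharacter G → ℂ,
      classInner (∑ ψ : IrrCharacter G, c ψ • (ψ : G → ℂ)) (χ : G → ℂ) = c χ := by
    intro c
    rw [Cfsg.Agent.Lib.CT.Orth.classInner_sum_left]
    have h1 : ∀ ψ : IrrCharacter G, classInner (c ψ • (ψ : G → ℂ)) (χ : G → ℂ)
        = if ψ = χ then c ψ else 0 := by
      intro ψ
      rw [Cfsg.Agent.Lib.CT.Orth.classInner_smul_left,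
        Cfsg.Agent.Lib.CT.Wedderburn.irr_orthonormal]
      by_cases hψ : ψ = χ
      · rw [if_pos hψ, if_pos hψ, mul_one]
      · rw [if_neg hψ, if_neg hψ, mul_zero]
    rw [Finset.sum_congr rfl (fun ψ _ => h1 ψ), Finset.sum_ite_eq' Finset.univ χ,
      if_pos (Finset.mem_univ _)]
  have h1 : (∑ ψ : IrrCharacter G, a ψ • (ψ : G → ℂ))
      = ∑ ψ : IrrCharacter G, b ψ • (ψ : G → ℂ) := by
    funext x
    simp only [Finset.sum_apply, Pi.smul_apply, smul_eq_mul]
    exact h x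
  rw [← key a, h1, key b]

variable (p : ℕ) [Fact p.Prime]

/-- If a combination of irreducible characters vanishes on the `p`-singular elements, so do its
block components. -/
theorem block_part_vanish [Fintype (IrrCharacter G)] {M : Ideal AlgInt} (hM : IsPModular p M)
    (c : IrrCharacter G → ℂ)
    (hF : ∀ x : G, p ∣ orderOf x → ∑ ψ : IrrCharacter G, c ψ * (ψ : G → ℂ) x = 0)
    (B : Set (IrrCharacter G)) [DecidablePred (· ∈ B)] (hB : IsPBlock M B) (y : G)
    (hy : p ∣ orderOf y) :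
    ∑ ψ ∈ Finset.univ.filter (· ∈ B), c ψ * (ψ : G → ℂ) y = 0 := by
  classical
  have hpp : p.Prime := Fact.out
  obtain ⟨k, hk⟩ : ∃ k : ℂ, k = ((p ^ (Nat.card G).factorization p : ℕ) : ℂ) := ⟨_, rfl⟩
  have hk0 : k ≠ 0 := by
    rw [hk]
    exact Nat.cast_ne_zero.2 (pow_ne_zero _ hpp.ne_zero)
  have htw : ∀ (ψ : IrrCharacter G) (x : G), tw p k (ψ : G → ℂ) x
      = ∑ χ : IrrCharacter G, (ctr p ψ χ : ℂ) * (χ : G → ℂ) x := by
    intro ψ x
    rw [hk, tw_eq_sum p ψ]
    simp only [Finset.sum_apply, Pi.smul_apply, smul_eq_mul]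
  have h1 : ∀ x : G, ∑ χ : IrrCharacter G, (k * c χ) * (χ : G → ℂ) x
      = ∑ χ : IrrCharacter G, (∑ ψ : IrrCharacter G, c ψ * (ctr p ψ χ : ℂ)) * (χ : G → ℂ) x := by
    intro x
    have h2 : ∑ χ : IrrCharacter G, (∑ ψ : IrrCharacter G, c ψ * (ctr p ψ χ : ℂ))
        * (χ : G → ℂ) x = ∑ ψ : IrrCharacter G, c ψ * tw p k (ψ : G → ℂ) x := by
      simp_rw [Finset.sum_mul]
      rw [Finset.sum_comm]
      refine Finset.sum_congr rfl fun ψ _ => ?_
      rw [htw ψ x, Finset.mul_sum]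
      refine Finset.sum_congr rfl fun χ _ => ?_
      ring
    rw [h2]
    by_cases hx : p ∣ orderOf x
    · have h3 : ∑ χ : IrrCharacter G, (k * c χ) * (χ : G → ℂ) x
          = k * ∑ χ : IrrCharacter G, c χ * (χ : G → ℂ) x := by
        rw [Finset.mul_sum]
        refine Finset.sum_congr rfl fun χ _ => ?_
        ring
      rw [h3, hF x hx, mul_zero]
      symm
      apply Finset.sum_eq_zero
      intro ψ _
      rw [tw_apply, if_pos hx, mul_zero]
    · refine Finset.sum_congr rfl fun ψ _ => ?_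
      rw [tw_apply, if_neg hx]
      ring
  have h3 : ∀ χ : IrrCharacter G, k * c χ = ∑ ψ : IrrCharacter G, c ψ * (ctr p ψ χ : ℂ) :=
    coeff_eq_of_sum_eq _ _ h1
  apply mul_left_cancel₀ hk0
  rw [mul_zero, Finset.mul_sum]
  calc ∑ χ ∈ Finset.univ.filter (· ∈ B), k * (c χ * (χ : G → ℂ) y)
      = ∑ χ ∈ Finset.univ.filter (· ∈ B),
          (∑ ψ ∈ Finset.univ.filter (· ∈ B), c ψ * (ctr p ψ χ : ℂ)) * (χ : G → ℂ) y := by
        refine Finset.sum_congr rfl fun χ hχ => ?_
        have hχB : χ ∈ B := (Finset.mem_filter.1 hχ).2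
        rw [← mul_assoc, h3 χ]
        congr 1
        symm
        apply Finset.sum_subset (Finset.subset_univ _)
        intro ψ _ hψ
        have hψB : ψ ∉ B := fun h => hψ (Finset.mem_filter.2 ⟨Finset.mem_univ _, h⟩)
        rw [ctr_symm, ctr_eq_zero_of_not_mem p hM B hB χ ψ hχB hψB, Int.cast_zero, mul_zero]
    _ = ∑ ψ ∈ Finset.univ.filter (· ∈ B), c ψ
          * ∑ χ ∈ Finset.univ.filter (· ∈ B), (ctr p ψ χ : ℂ) * (χ : G → ℂ) y := by
        simp_rw [Finset.sum_mul, Finset.mul_sum]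
        rw [Finset.sum_comm]
        refine Finset.sum_congr rfl fun ψ _ => Finset.sum_congr rfl fun χ _ => ?_
        ring
    _ = ∑ ψ ∈ Finset.univ.filter (· ∈ B), c ψ * tw p k (ψ : G → ℂ) y := by
        refine Finset.sum_congr rfl fun ψ hψ => ?_
        have hψB : ψ ∈ B := (Finset.mem_filter.1 hψ).2
        rw [htw ψ y]
        congr 1
        apply Finset.sum_subset (Finset.subset_univ _)
        intro χ _ hχ
        have hχB : χ ∉ B := fun h => hχ (Finset.mem_filter.2 ⟨Finset.mem_univ _, h⟩)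
        rw [ctr_eq_zero_of_not_mem p hM B hB ψ χ hψB hχB, Int.cast_zero, zero_mul]
    _ = 0 := by
        apply Finset.sum_eq_zero
        intro ψ _
        rw [tw_apply, if_pos hy, mul_zero]

/-- `∑_{χ ∈ B} χ(1) χ = ∑_{ψ ∈ B} ⟨ψ|_P, 1⟩ p^a ψ⁰`. -/
theorem block_sum_eq_tw [Fintype (IrrCharacter G)] (P : Sylow p G) [Fintype (P : Subgroup G)]
    {M : Ideal AlgInt} (hM : IsPModular p M)
    (B : Set (IrrCharacter G)) [DecidablePred (· ∈ B)] (hB : IsPBlock M B) (x : G) :
    ∑ χ ∈ Finset.univ.filter (· ∈ B), (charDegree (χ : G → ℂ) : ℂ) * (χ : G → ℂ) x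
      = ∑ ψ ∈ Finset.univ.filter (· ∈ B), (zz p P ψ : ℂ)
        * tw p ((p ^ (Nat.card G).factorization p : ℕ) : ℂ) (ψ : G → ℂ) x := by
  classical
  have htw : ∀ (ψ : IrrCharacter G),
      tw p ((p ^ (Nat.card G).factorization p : ℕ) : ℂ) (ψ : G → ℂ) x
      = ∑ χ : IrrCharacter G, (ctr p ψ χ : ℂ) * (χ : G → ℂ) x := by
    intro ψ
    rw [tw_eq_sum p ψ]
    simp only [Finset.sum_apply, Pi.smul_apply, smul_eq_mul]
  symm
  calc ∑ ψ ∈ Finset.univ.filter (· ∈ B), (zz p P ψ : ℂ)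
        * tw p ((p ^ (Nat.card G).factorization p : ℕ) : ℂ) (ψ : G → ℂ) x
      = ∑ ψ ∈ Finset.univ.filter (· ∈ B), ∑ χ ∈ Finset.univ.filter (· ∈ B),
          ((ctr p χ ψ : ℂ) * (zz p P ψ : ℂ)) * (χ : G → ℂ) x := by
        refine Finset.sum_congr rfl fun ψ hψ => ?_
        have hψB : ψ ∈ B := (Finset.mem_filter.1 hψ).2
        rw [htw ψ, Finset.mul_sum]
        symm
        apply Finset.sum_subset_zero_on_sdiff (Finset.subset_univ _)
        · intro χ hχ
          have hχB : χ ∉ B := fun h =>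
            (Finset.mem_sdiff.1 hχ).2 (Finset.mem_filter.2 ⟨Finset.mem_univ _, h⟩)
          rw [ctr_eq_zero_of_not_mem p hM B hB ψ χ hψB hχB, Int.cast_zero, zero_mul, mul_zero]
        · intro χ _
          rw [ctr_symm p χ ψ]
          ring
    _ = ∑ χ ∈ Finset.univ.filter (· ∈ B), (∑ ψ ∈ Finset.univ.filter (· ∈ B),
          (ctr p χ ψ : ℂ) * (zz p P ψ : ℂ)) * (χ : G → ℂ) x := by
        rw [Finset.sum_comm]
        refine Finset.sum_congr rfl fun χ _ => ?_
        rw [Finset.sum_mul]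
    _ = ∑ χ ∈ Finset.univ.filter (· ∈ B), (charDegree (χ : G → ℂ) : ℂ) * (χ : G → ℂ) x := by
        refine Finset.sum_congr rfl fun χ hχ => ?_
        have hχB : χ ∈ B := (Finset.mem_filter.1 hχ).2
        have h1 := sum_ctr_mul_zz p P χ
        rw [← sum_block_eq p hM B hB χ hχB] at h1
        have h2 : ((∑ ψ ∈ Finset.univ.filter (· ∈ B), ctr p χ ψ * (zz p P ψ : ℤ) : ℤ) : ℂ)
            = ((charDegree (χ : G → ℂ) : ℤ) : ℂ) := by rw [h1]
        push_cast at h2
        rw [h2]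

end Cfsg.Agent.Lib.Helper82.BlockProj
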