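import Mathlib
import Cfsg.Prelude.Def_Blocks
import Cfsg.Agent.Lib.Helper15.Berger
import Cfsg.Agent.Lib.CT.Kernel
import Cfsg.Agent.Lib.CT.Wedderburn
import Cfsg.Agent.Lib.Helper80.Integrality
import Cfsg.Agent.Lib.Helper77.BlockIdem
import Cfsg.Agent.Lib.Helper48.BrOmega
import Cfsg.Agent.Lib.Helper58.ExistsOver

set_option autoImplicit false
open Cfsg
open scoped ComplexConjugate

namespace Cfsg.Agent.Lib.Helper82.BrWeights

universe u

variable {G : Type u} [Group G]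

/-- Conjugation by an element of the normalizer permutes `P`. -/
theorem finsum_conj_eq [Finite G] (P : Subgroup G) {n : G}
    (hn : n ∈ Subgroup.normalizer (P : Set G)) (F : G → ℂ) :
    ∑ᶠ y : ↥P, F (n⁻¹ * (y : G) * n) = ∑ᶠ y : ↥P, F (y : G) := by
  have hmem : ∀ y : ↥P, n⁻¹ * (y : G) * n ∈ P := by
    intro y
    have h1 := (Subgroup.mem_normalizer_iff.mp (inv_mem hn) (y : G)).mp y.2
    simpa using h1
  have hinj : Function.Injective (fun y : ↥P => (⟨n⁻¹ * (y : G) * n, hmem y⟩ : ↥P)) := by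
    intro a b hab
    have h1 : n⁻¹ * (a : G) * n = n⁻¹ * (b : G) * n := congrArg Subtype.val hab
    apply Subtype.ext
    have h2 : (a : G) = n * (n⁻¹ * (a : G) * n) * n⁻¹ := by group
    rw [h2, h1]
    group
  exact finsum_eq_of_bijective _ (Finite.injective_iff_bijective.mp hinj) (fun y => rfl)

/-- The sum of the block idempotent coefficients over a coset of `P` is invariant under
conjugation by the normalizer of `P`. -/
theorem beta_conj [Finite G] (B : Set (IrrCharacter G)) (P : Subgroup G) {n : G}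
    (hn : n ∈ Subgroup.normalizer (P : Set G)) (g : G) :
    ∑ᶠ y : ↥P, blockCoeff B ((y : G) * (n * g * n⁻¹)) =
      ∑ᶠ y : ↥P, blockCoeff B ((y : G) * g) := by
  rw [← finsum_conj_eq P hn (fun y => blockCoeff B (y * g))]
  apply finsum_congr
  intro y
  have h := Cfsg.Agent.Lib.Helper77.BlockIdem.blockCoeff_conj B n (n⁻¹ * (y : G) * n * g)
  rw [← h]
  congr 1
  group

theorem orderOf_eq_of_mem {p : ℕ} [Fact p.Prime] (P : Subgroup G) (hP : Nat.card P = p)
    {x : G} (hx : x ∈ P) (hx1 : x ≠ 1) : orderOf x = p := by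
  have hp : p.Prime := Fact.out
  have h1 : orderOf x ∣ p := hP ▸ P.orderOf_dvd_natCard hx
  rcases (Nat.dvd_prime hp).mp h1 with h | h
  · exact absurd (orderOf_eq_one_iff.mp h) hx1
  · exact h

/-- The powers `x ^ i`, `i < p`, of a nontrivial element enumerate `P`. -/
theorem sum_range_pow [Finite G] {p : ℕ} [Fact p.Prime] (P : Subgroup G) (hP : Nat.card P = p)
    {x : G} (hx : x ∈ P) (hx1 : x ≠ 1) (F : G → ℂ) :
    ∑ i ∈ Finset.range p, F (x ^ i) = ∑ᶠ y : ↥P, F (y : G) := by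
  have hord : orderOf x = p := orderOf_eq_of_mem P hP hx hx1
  have hinj : Function.Injective (fun i : Fin p => (⟨x ^ (i : ℕ), pow_mem hx _⟩ : ↥P)) := by
    intro i j hij
    have h1 : x ^ (i : ℕ) = x ^ (j : ℕ) := congrArg Subtype.val hij
    apply Fin.ext
    exact pow_injOn_Iio_orderOf (by rw [hord]; exact i.2) (by rw [hord]; exact j.2) h1
  have hbij := hinj.bijective_of_nat_card_le (by rw [hP, Nat.card_fin])
  rw [Finset.sum_range, ← finsum_eq_sum_of_fintype]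
  exact finsum_eq_of_bijective _ hbij (fun i => rfl)

theorem inter_trivial {p : ℕ} [Fact p.Prime] (P : Subgroup G) (hP : Nat.card P = p)
    (H : Subgroup G) (hHp : ¬ p ∣ Nat.card H) {z : G} (hz : z ∈ P) (hzH : z ∈ H) : z = 1 := by
  by_contra hz1
  have h1 := orderOf_eq_of_mem P hP hz hz1
  exact hHp (h1 ▸ H.orderOf_dvd_natCard hzH)

/-- For `P ≤ S ≤ N_G(P) = P H`, multiplication `P × (S ∩ H) → S` is bijective. -/
theorem prod_bij [Finite G] {p : ℕ} [Fact p.Prime] (P : Subgroup G) (hP : Nat.card P = p)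
    (H : Subgroup G) (hHp : ¬ p ∣ Nat.card H)
    (hPH : ∀ n ∈ Subgroup.normalizer (P : Set G), ∃ a ∈ P, ∃ h ∈ H, n = a * h)
    (S : Subgroup G) (hPS : P ≤ S) (hSN : S ≤ Subgroup.normalizer (P : Set G)) :
    Function.Bijective (fun yk : ↥P × ↥(S.subgroupOf H) =>
      (⟨(yk.1 : G) * ((yk.2 : ↥H) : G),
        mul_mem (hPS yk.1.2) (Subgroup.mem_subgroupOf.mp yk.2.2)⟩ : ↥S)) := by
  constructor
  · rintro ⟨y, k⟩ ⟨y', k'⟩ hab
    have h1 : (y : G) * ((k : ↥H) : G) = (y' : G) * ((k' : ↥H) : G) := congrArg Subtype.val hab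
    have h2 : (y' : G)⁻¹ * (y : G) = ((k' : ↥H) : G) * ((k : ↥H) : G)⁻¹ := by
      have h3 : (y' : G)⁻¹ * (y : G) = (y' : G)⁻¹ * ((y : G) * ((k : ↥H) : G)) * ((k : ↥H) : G)⁻¹ := by
        group
      rw [h3, h1]
      group
    have h4 : (y' : G)⁻¹ * (y : G) = 1 :=
      inter_trivial P hP H hHp (mul_mem (inv_mem y'.2) y.2)
        (h2 ▸ mul_mem (k' : ↥H).2 (inv_mem (k : ↥H).2))
    have h5 : (y : G) = (y' : G) := by
      have h6 : (y : G) = (y' : G) * ((y' : G)⁻¹ * (y : G)) := by group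
      rw [h6, h4, mul_one]
    have h7 : ((k : ↥H) : G) = ((k' : ↥H) : G) := by
      rw [h5] at h1
      exact mul_left_cancel h1
    exact Prod.ext (Subtype.ext h5) (Subtype.ext (Subtype.ext h7))
  · intro s
    obtain ⟨a, ha, h, hh, hs⟩ := hPH s (hSN s.2)
    have hhS : h ∈ S := by
      have h1 : h = a⁻¹ * (s : G) := by rw [hs]; group
      rw [h1]
      exact mul_mem (inv_mem (hPS ha)) s.2
    exact ⟨⟨⟨a, ha⟩, ⟨⟨h, hh⟩, Subgroup.mem_subgroupOf.mpr hhS⟩⟩, Subtype.ext hs.symm⟩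

theorem card_eq_mul [Finite G] {p : ℕ} [Fact p.Prime] (P : Subgroup G) (hP : Nat.card P = p)
    (H : Subgroup G) (hHp : ¬ p ∣ Nat.card H)
    (hPH : ∀ n ∈ Subgroup.normalizer (P : Set G), ∃ a ∈ P, ∃ h ∈ H, n = a * h)
    (S : Subgroup G) (hPS : P ≤ S) (hSN : S ≤ Subgroup.normalizer (P : Set G)) :
    Nat.card ↥S = p * Nat.card ↥(S.subgroupOf H) := by
  have h1 := Nat.card_congr (Equiv.ofBijective _ (prod_bij P hP H hHp hPH S hPS hSN))
  rw [Nat.card_prod, hP] at h1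
  exact h1.symm

theorem relIndex_mul_card {X : Type*} [Group X] (A D : Subgroup X) (h : A ≤ D) :
    A.relIndex D * Nat.card ↥A = Nat.card ↥D := by
  have h1 := Subgroup.card_mul_index (A.subgroupOf D)
  rw [Nat.card_congr (Subgroup.subgroupOfEquivOfLe h).toEquiv] at h1
  rw [Subgroup.relIndex, mul_comm]
  exact h1

/-- The weights, for a general name `C` of the centralizer of `P`, with the two inputs `W1`
(value of the central character on the Brauer image of the block idempotent) and `W2`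
(Clifford theory over a cyclic inertial quotient) as hypotheses. -/
theorem exists_weights_core [Finite G] (p : ℕ) [Fact p.Prime]
    (M : Ideal AlgInt) (P : Subgroup G) (hP : Nat.card P = p)
    (C : Subgroup G) (hC : C = Subgroup.centralizer (P : Set G))
    (B : Set (IrrCharacter G)) (θ : IrrCharacter ↥C)
    (hW1 : MemLocalIdeal M
      (∑ᶠ c : ↥C, blockCoeff B (c : G) * (θ : ↥C → ℂ) c / (θ : ↥C → ℂ) 1 - 1))
    (hW2 : ∀ (H : Type u) [Group H] [Finite H] (K : Subgroup H) [hK : K.Normal]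
      (θ : IrrCharacter ↥K) (I : Subgroup H)
      (_ : ∀ h : H, h ∈ I ↔ ∀ k : ↥K,
        (θ : ↥K → ℂ) ⟨h * (k : H) * h⁻¹, hK.conj_mem k k.2 h⟩ = (θ : ↥K → ℂ) k)
      (_ : ∃ g ∈ I, ∀ h ∈ I, ∃ n : ℕ, ∃ k ∈ K, h = g ^ n * k),
      ∃ χ : Fin (K.relIndex I) → IrrCharacter H, Function.Injective χ ∧
        ∀ (j : Fin (K.relIndex I)) (k : ↥K),
          (χ j : H → ℂ) (k : H) * (Nat.card H : ℂ) * (θ : ↥K → ℂ) 1 =
            (χ j : H → ℂ) 1 *
              ∑ᶠ h : H, (θ : ↥K → ℂ) ⟨h * (k : H) * h⁻¹, hK.conj_mem k k.2 h⟩)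
    (hθP : ∀ x : ↥C, (x : G) ∈ P → (θ : ↥C → ℂ) x = (θ : ↥C → ℂ) 1)
    (T : Subgroup G)
    (hT : ∀ g : G, g ∈ T ↔ (g ∈ Subgroup.normalizer (P : Set G) ∧
      ∀ c c' : ↥C, (c' : G) = g * c * g⁻¹ → (θ : ↥C → ℂ) c' = (θ : ↥C → ℂ) c))
    (H : Subgroup G) (hHN : H ≤ Subgroup.normalizer (P : Set G))
    (hHp : ¬ p ∣ Nat.card H)
    (hPH : ∀ n ∈ Subgroup.normalizer (P : Set G), ∃ a ∈ P, ∃ h ∈ H, n = a * h)
    (x : G) (hx : x ∈ P) (hx1 : x ≠ 1) :
    ∃ χ : Fin (C.relIndex T) → IrrCharacter ↥H, Function.Injective χ ∧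
      ∀ j, MemLocalIdeal M
        (∑ᶠ h ∈ {h : ↥H | (h : G) ∈ C},
          (∑ i ∈ Finset.range p, blockCoeff B (x ^ i * (h : G))) *
            (χ j : ↥H → ℂ) h / (χ j : ↥H → ℂ) 1 - 1) := by
  classical
  have hp : p.Prime := Fact.out
  have hθirr : IsIrrCharacter ↥C (θ : ↥C → ℂ) := θ.2
  have hθch := Cfsg.Agent.Lib.CT.Wedderburn.isCharacter_of_irr hθirr
  have hmemC : ∀ g : G, g ∈ C ↔ ∀ y ∈ P, y * g = g * y := by
    intro g
    rw [hC]
    exact Subgroup.mem_centralizer_iff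
  have hPpow : ∀ y ∈ P, ∃ i : ℕ, x ^ i = y := by
    intro y hy
    have h1 := mem_powers_of_prime_card (G := ↥P) hP (g := ⟨x, hx⟩) (g' := ⟨y, hy⟩)
      (fun h => hx1 (congrArg Subtype.val h))
    obtain ⟨i, hi⟩ := (Submonoid.mem_powers_iff _ _).mp h1
    exact ⟨i, congrArg Subtype.val hi⟩
  have hPC : P ≤ C := by
    intro z hz
    rw [hmemC]
    intro y hy
    obtain ⟨i, rfl⟩ := hPpow y hy
    obtain ⟨j, rfl⟩ := hPpow z hz
    exact pow_mul_comm x i j
  have hCN : C ≤ Subgroup.normalizer (P : Set G) := by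
    rw [hC]
    exact Subgroup.centralizer_le_normalizer _
  have hconjP : ∀ n ∈ Subgroup.normalizer (P : Set G), ∀ y ∈ P, n * y * n⁻¹ ∈ P :=
    fun n hn y hy => (Subgroup.mem_normalizer_iff.mp hn y).mp hy
  have hCconj : ∀ n ∈ Subgroup.normalizer (P : Set G), ∀ c ∈ C, n * c * n⁻¹ ∈ C := by
    intro n hn c hc
    rw [hmemC] at hc ⊢
    intro y hy
    have hy' : n⁻¹ * y * n ∈ P := by
      have h1 := hconjP n⁻¹ (inv_mem hn) y hy
      simpa using h1
    have h2 := hc _ hy'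
    calc y * (n * c * n⁻¹) = n * ((n⁻¹ * y * n) * c) * n⁻¹ := by group
      _ = n * (c * (n⁻¹ * y * n)) * n⁻¹ := by rw [h2]
      _ = n * c * n⁻¹ * y := by group
  have hdecomp : ∀ c ∈ C, ∃ y ∈ P, ∃ k ∈ H, k ∈ C ∧ c = y * k := by
    intro c hc
    obtain ⟨a, ha, h, hh, rfl⟩ := hPH c (hCN hc)
    refine ⟨a, ha, h, hh, ?_, rfl⟩
    have h1 : h = a⁻¹ * (a * h) := by group
    rw [h1]
    exact mul_mem (inv_mem (hPC ha)) hc
  have hTN : T ≤ Subgroup.normalizer (P : Set G) := fun t ht => ((hT t).mp ht).1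
  have hCT : C ≤ T := by
    intro c hc
    refine (hT c).mpr ⟨hCN hc, fun c₁ c₁' h => ?_⟩
    have h1 : c₁' = (⟨c, hc⟩ : ↥C) * c₁ * (⟨c, hc⟩ : ↥C)⁻¹ := Subtype.ext h
    rw [h1]
    exact Cfsg.Agent.Lib.CT.Wedderburn.char_isClassFunction hθch c₁ ⟨c, hc⟩
  -- the subgroups of `H`
  have hKn : (C.subgroupOf H).Normal := ⟨fun k hk h => by
    rw [Subgroup.mem_subgroupOf] at hk ⊢
    exact hCconj h (hHN h.2) k hk⟩
  -- the restriction of `θ`
  have hfmem : ∀ k : ↥(C.subgroupOf H), (H.subtype.comp (C.subgroupOf H).subtype) k ∈ C :=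
    fun k => Subgroup.mem_subgroupOf.mp k.2
  have hCfin : Fintype ↥C := Fintype.ofFinite _
  have hθKirr : IsIrrCharacter ↥(C.subgroupOf H)
      (fun k => (θ : ↥C → ℂ) (((H.subtype.comp (C.subgroupOf H).subtype).codRestrict C hfmem) k)) := by
    refine Cfsg.Agent.Lib.Helper15.Berger.irr_comp_of_scalar
      ((H.subtype.comp (C.subgroupOf H).subtype).codRestrict C hfmem) (P.subgroupOf C) ?_ hθirr ?_
    · intro g
      obtain ⟨y, hy, k, hk, hkC, hgyk⟩ := hdecomp g g.2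
      refine ⟨⟨⟨k, hk⟩, Subgroup.mem_subgroupOf.mpr hkC⟩, ⟨y, hPC hy⟩,
        Subgroup.mem_subgroupOf.mpr hy, ?_⟩
      apply Subtype.ext
      show (g : G) = k * y
      rw [hgyk]
      exact (hmemC k).mp hkC y hy
    · intro k hk
      have hk' : (k : G) ∈ P := Subgroup.mem_subgroupOf.mp hk
      rw [hθP k hk', Cfsg.Agent.Lib.Helper80.Integrality.apply_one_eq_charDegree hθch,
        Complex.norm_natCast, Complex.natCast_re]
  -- the inertial subgroup
  have hI : ∀ h : ↥H, h ∈ T.subgroupOf H ↔ ∀ k : ↥(C.subgroupOf H),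
      (θ : ↥C → ℂ) (((H.subtype.comp (C.subgroupOf H).subtype).codRestrict C hfmem)
        ⟨h * (k : ↥H) * h⁻¹, hKn.conj_mem k k.2 h⟩) =
      (θ : ↥C → ℂ) (((H.subtype.comp (C.subgroupOf H).subtype).codRestrict C hfmem) k) := by
    intro h
    constructor
    · intro hh k
      have hhT : (h : G) ∈ T := Subgroup.mem_subgroupOf.mp hh
      exact ((hT h).mp hhT).2 _ _ rfl
    · intro hh
      rw [Subgroup.mem_subgroupOf, hT]
      refine ⟨hHN h.2, ?_⟩
      intro c c' hcc'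
      obtain ⟨y, hy, k, hk, hkC, hcyk⟩ := hdecomp c c.2
      have hy' : (h : G) * y * (h : G)⁻¹ ∈ P := hconjP h (hHN h.2) y hy
      have h1 := hh ⟨⟨k, hk⟩, Subgroup.mem_subgroupOf.mpr hkC⟩
      have hc'eq : c' = (⟨(h : G) * y * (h : G)⁻¹, hPC hy'⟩ : ↥C) *
          ((H.subtype.comp (C.subgroupOf H).subtype).codRestrict C hfmem)
            ⟨h * (⟨k, hk⟩ : ↥H) * h⁻¹,
              hKn.conj_mem _ (Subgroup.mem_subgroupOf.mpr hkC) h⟩ := by
        apply Subtype.ext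
        rw [hcc', hcyk]
        show _ = (h : G) * y * (h : G)⁻¹ * ((h : G) * k * (h : G)⁻¹)
        group
      have hceq : c = (⟨y, hPC hy⟩ : ↥C) *
          ((H.subtype.comp (C.subgroupOf H).subtype).codRestrict C hfmem)
            ⟨⟨k, hk⟩, Subgroup.mem_subgroupOf.mpr hkC⟩ := Subtype.ext hcyk
      rw [hc'eq, hceq, Cfsg.Agent.Lib.CT.Kernel.apply_mul_of_eq hθch (hθP _ hy'),
        Cfsg.Agent.Lib.CT.Kernel.apply_mul_of_eq hθch (hθP _ hy)]
      exact h1
  -- the inertial quotient is cyclic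
  have hcyc : ∃ g ∈ T.subgroupOf H, ∀ h ∈ T.subgroupOf H, ∃ n : ℕ, ∃ k ∈ C.subgroupOf H,
      h = g ^ n * k := by
    have hPprime : Fact (Nat.card ↥P).Prime := ⟨by rw [hP]; exact hp⟩
    have hPcyc : IsCyclic ↥P := isCyclic_of_prime_card hP
    have hAcyc : IsCyclic (MulAut ↥P) :=
      isCyclic_of_injective (IsCyclic.mulAutMulEquiv ↥P).toMonoidHom
        (IsCyclic.mulAutMulEquiv ↥P).injective
    have hker : ∀ h : ↥H, (P.normalizerMonoidHom.comp (Subgroup.inclusion hHN)) h = 1 →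
        h ∈ C.subgroupOf H := by
      intro h hh
      have h1 : Subgroup.inclusion hHN h ∈ P.normalizerMonoidHom.ker := hh
      rw [Subgroup.normalizerMonoidHom_ker, Subgroup.mem_subgroupOf] at h1
      rw [Subgroup.mem_subgroupOf, hC]
      exact h1
    have hIcyc : IsCyclic ↥((T.subgroupOf H).map
        (P.normalizerMonoidHom.comp (Subgroup.inclusion hHN))) := inferInstance
    obtain ⟨a, ha⟩ := hIcyc.exists_generator
    obtain ⟨g, hgI, hga⟩ := Subgroup.mem_map.mp a.2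
    refine ⟨g, hgI, fun h hh => ?_⟩
    have h1 := ha ⟨(P.normalizerMonoidHom.comp (Subgroup.inclusion hHN)) h,
      Subgroup.mem_map_of_mem _ hh⟩
    obtain ⟨z, hz⟩ := Subgroup.mem_zpowers_iff.mp h1
    have h2 : (P.normalizerMonoidHom.comp (Subgroup.inclusion hHN)) (g ^ z) =
        (P.normalizerMonoidHom.comp (Subgroup.inclusion hHN)) h := by
      have h3 := congrArg Subtype.val hz
      rw [map_zpow, hga]
      simpa using h3
    have h4 : g ^ z ∈ Submonoid.powers g :=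
      (isOfFinOrder_of_finite g).mem_powers_iff_mem_zpowers.mpr (Subgroup.zpow_mem_zpowers g z)
    obtain ⟨n, hn⟩ := (Submonoid.mem_powers_iff _ _).mp h4
    refine ⟨n, (g ^ n)⁻¹ * h, hker _ ?_, by group⟩
    rw [map_mul, map_inv, hn, h2, inv_mul_cancel]
  obtain ⟨χ₀, hχ₀inj, hχ₀⟩ := @hW2 ↥H _ _ (C.subgroupOf H) hKn
    ⟨fun k => (θ : ↥C → ℂ) (((H.subtype.comp (C.subgroupOf H).subtype).codRestrict C hfmem) k),
      hθKirr⟩ (T.subgroupOf H) hI hcyc
  -- the index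
  have hidx : C.relIndex T = (C.subgroupOf H).relIndex (T.subgroupOf H) := by
    have hcardC := card_eq_mul P hP H hHp hPH C hPC hCN
    have hcardT := card_eq_mul P hP H hHp hPH T (hPC.trans hCT) hTN
    have hrelC := relIndex_mul_card C T hCT
    have hKI : C.subgroupOf H ≤ T.subgroupOf H := fun k hk =>
      Subgroup.mem_subgroupOf.mpr (hCT (Subgroup.mem_subgroupOf.mp hk))
    have hrelK := relIndex_mul_card (C.subgroupOf H) (T.subgroupOf H) hKI
    have hpos : 0 < p * Nat.card ↥(C.subgroupOf H) := Nat.mul_pos hp.pos Nat.card_pos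
    apply Nat.eq_of_mul_eq_mul_right hpos
    calc C.relIndex T * (p * Nat.card ↥(C.subgroupOf H))
        = C.relIndex T * Nat.card ↥C := by rw [hcardC]
      _ = Nat.card ↥T := hrelC
      _ = p * Nat.card ↥(T.subgroupOf H) := hcardT
      _ = p * ((C.subgroupOf H).relIndex (T.subgroupOf H) * Nat.card ↥(C.subgroupOf H)) := by
          rw [hrelK]
      _ = (C.subgroupOf H).relIndex (T.subgroupOf H) * (p * Nat.card ↥(C.subgroupOf H)) := by
          ring
  refine ⟨fun j => χ₀ (Fin.cast hidx j), hχ₀inj.comp (Fin.cast_injective hidx), ?_⟩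
  intro j
  have hψirr : IsIrrCharacter ↥H (χ₀ (Fin.cast hidx j) : ↥H → ℂ) := (χ₀ (Fin.cast hidx j)).2
  have hψ1 : (χ₀ (Fin.cast hidx j) : ↥H → ℂ) 1 ≠ 0 :=
    Cfsg.Agent.Lib.CT.Wedderburn.irr_apply_one_ne_zero hψirr
  have hθ1 : (θ : ↥C → ℂ) 1 ≠ 0 := Cfsg.Agent.Lib.CT.Wedderburn.irr_apply_one_ne_zero hθirr
  have hHne : (Nat.card ↥H : ℂ) ≠ 0 := by
    exact_mod_cast (Nat.card_pos (α := ↥H)).ne'
  have hHfin : Fintype ↥H := Fintype.ofFinite _
  have hKfin : Fintype ↥(C.subgroupOf H) := Fintype.ofFinite _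
  have hPfin : Fintype ↥P := Fintype.ofFinite _
  have hβ : ∀ g : G, ∑ i ∈ Finset.range p, blockCoeff B (x ^ i * g) =
      ∑ᶠ y : ↥P, blockCoeff B ((y : G) * g) :=
    fun g => sum_range_pow P hP hx hx1 (fun y => blockCoeff B (y * g))
  have hkey : ∑ᶠ h ∈ {h : ↥H | (h : G) ∈ C},
        (∑ i ∈ Finset.range p, blockCoeff B (x ^ i * (h : G))) *
          (χ₀ (Fin.cast hidx j) : ↥H → ℂ) h / (χ₀ (Fin.cast hidx j) : ↥H → ℂ) 1 =
      ∑ᶠ c : ↥C, blockCoeff B (c : G) * (θ : ↥C → ℂ) c / (θ : ↥C → ℂ) 1 := by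
    have hW := hχ₀ (Fin.cast hidx j)
    -- to a sum over `K`
    have hstep1 : ∑ᶠ h ∈ {h : ↥H | (h : G) ∈ C},
          (∑ i ∈ Finset.range p, blockCoeff B (x ^ i * (h : G))) *
            (χ₀ (Fin.cast hidx j) : ↥H → ℂ) h / (χ₀ (Fin.cast hidx j) : ↥H → ℂ) 1 =
        ∑ k : ↥(C.subgroupOf H), (∑ᶠ y : ↥P, blockCoeff B ((y : G) * ((k : ↥H) : G))) *
          (χ₀ (Fin.cast hidx j) : ↥H → ℂ) (k : ↥H) / (χ₀ (Fin.cast hidx j) : ↥H → ℂ) 1 := by
      rw [← finsum_set_coe_eq_finsum_mem, ← finsum_eq_sum_of_fintype]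
      refine finsum_eq_of_bijective
        (fun s : ↥{h : ↥H | (h : G) ∈ C} =>
          (⟨s.1, Subgroup.mem_subgroupOf.mpr s.2⟩ : ↥(C.subgroupOf H))) ⟨?_, ?_⟩ (fun s => ?_)
      · intro a b hab
        exact Subtype.ext (congrArg Subtype.val hab)
      · intro k
        exact ⟨⟨k.1, Subgroup.mem_subgroupOf.mp k.2⟩, rfl⟩
      · rw [hβ]
    -- the Clifford formula
    have hstep2 : ∀ k : ↥(C.subgroupOf H),
        (χ₀ (Fin.cast hidx j) : ↥H → ℂ) (k : ↥H) / (χ₀ (Fin.cast hidx j) : ↥H → ℂ) 1 =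
        (∑ h : ↥H, (θ : ↥C → ℂ) (((H.subtype.comp (C.subgroupOf H).subtype).codRestrict C hfmem)
          ⟨h * (k : ↥H) * h⁻¹, hKn.conj_mem k k.2 h⟩)) /
          ((Nat.card ↥H : ℂ) * (θ : ↥C → ℂ) 1) := by
      intro k
      have h1 := hW k
      rw [finsum_eq_sum_of_fintype] at h1
      have hθK1 : (θ : ↥C → ℂ) (((H.subtype.comp (C.subgroupOf H).subtype).codRestrict C hfmem) 1) =
          (θ : ↥C → ℂ) 1 := by
        rw [map_one]
      rw [div_eq_div_iff hψ1 (mul_ne_zero hHne hθ1), ← hθK1, ← mul_assoc]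
      rw [mul_comm _ ((χ₀ (Fin.cast hidx j) : ↥H → ℂ) 1)]
      exact h1
    -- conjugation invariance
    have hstep3 : ∀ h : ↥H,
        ∑ k : ↥(C.subgroupOf H), (∑ᶠ y : ↥P, blockCoeff B ((y : G) * ((k : ↥H) : G))) *
          (θ : ↥C → ℂ) (((H.subtype.comp (C.subgroupOf H).subtype).codRestrict C hfmem)
            ⟨h * (k : ↥H) * h⁻¹, hKn.conj_mem k k.2 h⟩) =
        ∑ k : ↥(C.subgroupOf H), (∑ᶠ y : ↥P, blockCoeff B ((y : G) * ((k : ↥H) : G))) *
          (θ : ↥C → ℂ) (((H.subtype.comp (C.subgroupOf H).subtype).codRestrict C hfmem) k) := by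
      intro h
      have hinj : Function.Injective (fun k : ↥(C.subgroupOf H) =>
          (⟨h * (k : ↥H) * h⁻¹, hKn.conj_mem k k.2 h⟩ : ↥(C.subgroupOf H))) := by
        intro a b hab
        have h1 : h * (a : ↥H) * h⁻¹ = h * (b : ↥H) * h⁻¹ := congrArg Subtype.val hab
        apply Subtype.ext
        have h2 : (a : ↥H) = h⁻¹ * (h * (a : ↥H) * h⁻¹) * h := by group
        rw [h2, h1]
        group
      refine Fintype.sum_bijective _ (Finite.injective_iff_bijective.mp hinj) _ _ (fun k => ?_)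
      congr 1
      exact (beta_conj B P (hHN h.2) ((k : ↥H) : G)).symm
    -- the sum over `C`
    have hstep4 : ∑ k : ↥(C.subgroupOf H), (∑ᶠ y : ↥P, blockCoeff B ((y : G) * ((k : ↥H) : G))) *
          (θ : ↥C → ℂ) (((H.subtype.comp (C.subgroupOf H).subtype).codRestrict C hfmem) k) =
        ∑ c : ↥C, blockCoeff B (c : G) * (θ : ↥C → ℂ) c := by
      have hbij := prod_bij P hP H hHp hPH C hPC hCN
      have hsum := Fintype.sum_bijective _ hbij
        (fun yk : ↥P × ↥(C.subgroupOf H) => blockCoeff B ((yk.1 : G) * ((yk.2 : ↥H) : G)) *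
          (θ : ↥C → ℂ) (((H.subtype.comp (C.subgroupOf H).subtype).codRestrict C hfmem) yk.2))
        (fun c : ↥C => blockCoeff B (c : G) * (θ : ↥C → ℂ) c) (by
          intro yk
          show _ = blockCoeff B ((yk.1 : G) * ((yk.2 : ↥H) : G)) *
            (θ : ↥C → ℂ) ((⟨(yk.1 : G), hPC yk.1.2⟩ : ↥C) *
              ((H.subtype.comp (C.subgroupOf H).subtype).codRestrict C hfmem) yk.2)
          rw [Cfsg.Agent.Lib.CT.Kernel.apply_mul_of_eq hθch (hθP _ yk.1.2)])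
      rw [← hsum, Fintype.sum_prod_type_right]
      apply Finset.sum_congr rfl
      intro k _
      rw [finsum_eq_sum_of_fintype, Finset.sum_mul]
    rw [hstep1]
    have hfin : ∑ k : ↥(C.subgroupOf H), (∑ᶠ y : ↥P, blockCoeff B ((y : G) * ((k : ↥H) : G))) *
          (χ₀ (Fin.cast hidx j) : ↥H → ℂ) (k : ↥H) / (χ₀ (Fin.cast hidx j) : ↥H → ℂ) 1 =
        (∑ c : ↥C, blockCoeff B (c : G) * (θ : ↥C → ℂ) c) / (θ : ↥C → ℂ) 1 := by
      calc ∑ k : ↥(C.subgroupOf H), (∑ᶠ y : ↥P, blockCoeff B ((y : G) * ((k : ↥H) : G))) *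
            (χ₀ (Fin.cast hidx j) : ↥H → ℂ) (k : ↥H) / (χ₀ (Fin.cast hidx j) : ↥H → ℂ) 1
          = ∑ k : ↥(C.subgroupOf H), ∑ h : ↥H,
              (∑ᶠ y : ↥P, blockCoeff B ((y : G) * ((k : ↥H) : G))) *
              (θ : ↥C → ℂ) (((H.subtype.comp (C.subgroupOf H).subtype).codRestrict C hfmem)
                ⟨h * (k : ↥H) * h⁻¹, hKn.conj_mem k k.2 h⟩) /
              ((Nat.card ↥H : ℂ) * (θ : ↥C → ℂ) 1) := by
            apply Finset.sum_congr rfl
            intro k _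
            rw [mul_div_assoc, hstep2 k, Finset.sum_div, Finset.mul_sum]
            apply Finset.sum_congr rfl
            intro h _
            rw [mul_div_assoc]
        _ = ∑ h : ↥H, (∑ k : ↥(C.subgroupOf H),
              (∑ᶠ y : ↥P, blockCoeff B ((y : G) * ((k : ↥H) : G))) *
              (θ : ↥C → ℂ) (((H.subtype.comp (C.subgroupOf H).subtype).codRestrict C hfmem)
                ⟨h * (k : ↥H) * h⁻¹, hKn.conj_mem k k.2 h⟩)) /
              ((Nat.card ↥H : ℂ) * (θ : ↥C → ℂ) 1) := by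
            rw [Finset.sum_comm]
            apply Finset.sum_congr rfl
            intro h _
            rw [Finset.sum_div]
        _ = ∑ _h : ↥H, (∑ c : ↥C, blockCoeff B (c : G) * (θ : ↥C → ℂ) c) /
              ((Nat.card ↥H : ℂ) * (θ : ↥C → ℂ) 1) := by
            apply Finset.sum_congr rfl
            intro h _
            rw [hstep3 h, hstep4]
        _ = (∑ c : ↥C, blockCoeff B (c : G) * (θ : ↥C → ℂ) c) / (θ : ↥C → ℂ) 1 := by
            rw [Finset.sum_const, Finset.card_univ, nsmul_eq_mul, ← Nat.card_eq_fintype_card]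
            field_simp
    rw [hfin, finsum_eq_sum_of_fintype, Finset.sum_div]
  rw [hkey]
  exact hW1

/-- Piece `W` of S4442 with the inputs `W1` and `W2` as hypotheses. -/
theorem exists_weights_of {G : Type u} [Group G] [Finite G] (p : ℕ) [Fact p.Prime]
    (M : Ideal AlgInt) (P : Sylow p G) (hP : Nat.card P = p)
    (B : Set (IrrCharacter G))
    (θ : IrrCharacter (Subgroup.centralizer ((P : Subgroup G) : Set G)))
    (hW1 : MemLocalIdeal M
      (∑ᶠ c : ↥(Subgroup.centralizer ((P : Subgroup G) : Set G)), blockCoeff B (c : G) *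
        (θ : Subgroup.centralizer ((P : Subgroup G) : Set G) → ℂ) c /
          (θ : Subgroup.centralizer ((P : Subgroup G) : Set G) → ℂ) 1 - 1))
    (hW2 : ∀ (H : Type u) [Group H] [Finite H] (K : Subgroup H) [hK : K.Normal]
      (θ : IrrCharacter ↥K) (I : Subgroup H)
      (_ : ∀ h : H, h ∈ I ↔ ∀ k : ↥K,
        (θ : ↥K → ℂ) ⟨h * (k : H) * h⁻¹, hK.conj_mem k k.2 h⟩ = (θ : ↥K → ℂ) k)
      (_ : ∃ g ∈ I, ∀ h ∈ I, ∃ n : ℕ, ∃ k ∈ K, h = g ^ n * k),
      ∃ χ : Fin (K.relIndex I) → IrrCharacter H, Function.Injective χ ∧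
        ∀ (j : Fin (K.relIndex I)) (k : ↥K),
          (χ j : H → ℂ) (k : H) * (Nat.card H : ℂ) * (θ : ↥K → ℂ) 1 =
            (χ j : H → ℂ) 1 *
              ∑ᶠ h : H, (θ : ↥K → ℂ) ⟨h * (k : H) * h⁻¹, hK.conj_mem k k.2 h⟩)
    (hθP : ∀ x : Subgroup.centralizer ((P : Subgroup G) : Set G), (x : G) ∈ (P : Subgroup G) →
      (θ : Subgroup.centralizer ((P : Subgroup G) : Set G) → ℂ) x =
        (θ : Subgroup.centralizer ((P : Subgroup G) : Set G) → ℂ) 1)
    (T : Subgroup G)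
    (hT : ∀ g : G, g ∈ T ↔ (g ∈ Subgroup.normalizer ((P : Subgroup G) : Set G) ∧
      ∀ c c' : Subgroup.centralizer ((P : Subgroup G) : Set G), (c' : G) = g * c * g⁻¹ →
        (θ : Subgroup.centralizer ((P : Subgroup G) : Set G) → ℂ) c' =
          (θ : Subgroup.centralizer ((P : Subgroup G) : Set G) → ℂ) c))
    (H : Subgroup G) (hHN : H ≤ Subgroup.normalizer ((P : Subgroup G) : Set G))
    (hHp : ¬ p ∣ Nat.card H)
    (hPH : ∀ n ∈ Subgroup.normalizer ((P : Subgroup G) : Set G),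
      ∃ a ∈ (P : Subgroup G), ∃ h ∈ H, n = a * h)
    (x : G) (hx : x ∈ (P : Subgroup G)) (hx1 : x ≠ 1) :
    ∃ χ : Fin ((Subgroup.centralizer ((P : Subgroup G) : Set G)).relIndex T) → IrrCharacter ↥H,
      Function.Injective χ ∧
      ∀ j, MemLocalIdeal M
        (∑ᶠ h ∈ {h : ↥H | (h : G) ∈ Subgroup.centralizer ((P : Subgroup G) : Set G)},
          (∑ i ∈ Finset.range p, blockCoeff B (x ^ i * (h : G))) *
            (χ j : ↥H → ℂ) h / (χ j : ↥H → ℂ) 1 - 1) :=
  exists_weights_core p M (P : Subgroup G) hP _ rfl B θ hW1 hW2 hθP T hT H hHN hHp hPH x hx hx1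

/-- Piece `W` of S4442: the weights of the Brauer correspondent attached to the characters of a
`p`-complement `H` of the normalizer of a Sylow subgroup `P` of order `p` lying over `θ`. -/
theorem exists_weights {G : Type u} [Group G] [Finite G] (p : ℕ) [Fact p.Prime]
    (M : Ideal AlgInt) (hM : IsPModular p M) (P : Sylow p G) (hP : Nat.card P = p)
    (B : Set (IrrCharacter G))
    (b : Set (IrrCharacter (Subgroup.centralizer ((P : Subgroup G) : Set G))))
    (hind : IsInducedBlock M (Subgroup.centralizer ((P : Subgroup G) : Set G)) b B)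
    (θ : IrrCharacter (Subgroup.centralizer ((P : Subgroup G) : Set G))) (hθ : θ ∈ b)
    (hθP : ∀ x : Subgroup.centralizer ((P : Subgroup G) : Set G), (x : G) ∈ (P : Subgroup G) →
      (θ : Subgroup.centralizer ((P : Subgroup G) : Set G) → ℂ) x =
        (θ : Subgroup.centralizer ((P : Subgroup G) : Set G) → ℂ) 1)
    (T : Subgroup G)
    (hT : ∀ g : G, g ∈ T ↔ (g ∈ Subgroup.normalizer ((P : Subgroup G) : Set G) ∧
      ∀ c c' : Subgroup.centralizer ((P : Subgroup G) : Set G), (c' : G) = g * c * g⁻¹ →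
        (θ : Subgroup.centralizer ((P : Subgroup G) : Set G) → ℂ) c' =
          (θ : Subgroup.centralizer ((P : Subgroup G) : Set G) → ℂ) c))
    (H : Subgroup G) (hHN : H ≤ Subgroup.normalizer ((P : Subgroup G) : Set G))
    (hHp : ¬ p ∣ Nat.card H)
    (hPH : ∀ n ∈ Subgroup.normalizer ((P : Subgroup G) : Set G),
      ∃ a ∈ (P : Subgroup G), ∃ h ∈ H, n = a * h)
    (x : G) (hx : x ∈ (P : Subgroup G)) (hx1 : x ≠ 1) :
    ∃ χ : Fin ((Subgroup.centralizer ((P : Subgroup G) : Set G)).relIndex T) → IrrCharacter ↥H,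
      Function.Injective χ ∧
      ∀ j, MemLocalIdeal M
        (∑ᶠ h ∈ {h : ↥H | (h : G) ∈ Subgroup.centralizer ((P : Subgroup G) : Set G)},
          (∑ i ∈ Finset.range p, blockCoeff B (x ^ i * (h : G))) *
            (χ j : ↥H → ℂ) h / (χ j : ↥H → ℂ) 1 - 1) :=
  exists_weights_of p M P hP B θ
    (Cfsg.Agent.Lib.Helper48.BrOmega.brauer_omega p M hM _ b B hind θ hθ)
    (fun _ _ _ K _ θ' I hI hcyc => Cfsg.Agent.Lib.Helper58.ExistsOver.exists_over K θ' I hI hcyc)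
    hθP T hT H hHN hHp hPH x hx hx1

end Cfsg.Agent.Lib.Helper82.BrWeights
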