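import Mathlib

set_option autoImplicit false

namespace Cfsg.Agent.Lib.Helper82.CommPairs

open Finset

/-- For an element `x` of a ring, `n - (1 + x + ... + x^(n-1))` is a left multiple of `1 - x`. -/
theorem exists_theta {R : Type*} [Ring R] (x : R) (n : ℕ) :
    ∃ θ : R, (n : R) - ∑ i ∈ range n, x ^ i = (1 - x) * θ := by
  induction n with
  | zero => exact ⟨0, by simp⟩
  | succ n ih =>
    obtain ⟨θ, hθ⟩ := ih
    refine ⟨θ + ∑ i ∈ range n, x ^ i, ?_⟩
    rw [sum_range_succ, mul_add, ← hθ]
    have h1 := mul_geom_sum x n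
    have h2 : (1 - x) * ∑ i ∈ range n, x ^ i = 1 - x ^ n := by
      rw [← neg_sub x 1, neg_mul, h1, neg_sub]
    rw [h2]; push_cast; abel

theorem card_ker_mul_card_range {A B : Type*} [AddCommGroup A] [AddCommGroup B] [Finite A]
    (f : A →ₗ[ℤ] B) :
    Nat.card A = Nat.card (LinearMap.ker f) * Nat.card (LinearMap.range f) := by
  rw [Submodule.card_eq_card_quotient_mul_card (LinearMap.ker f),
    Nat.card_congr (LinearMap.quotKerEquivRange f).toEquiv]

/-- Counting lemma for two commuting automorphisms of coprime order of a finite abelian group. -/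
theorem count_pairs {W : Type*} [AddCommGroup W] [Finite W] (α β : Module.End ℤ W)
    (hαβ : Commute α β) (n : ℕ) (hα : α ^ n = 1) (hβ : β ^ n = 1)
    (hn : Nat.Coprime n (Nat.card W)) :
    Nat.card {p : W × W // p.1 + α p.2 = p.2 + β p.1} =
      Nat.card W * Nat.card {w : W // α w = w ∧ β w = w} := by
  classical
  set σa : Module.End ℤ W := ∑ i ∈ range n, α ^ i with hσa
  set σb : Module.End ℤ W := ∑ i ∈ range n, β ^ i with hσb
  have ha1 : (α - 1) * σa = 0 := by rw [hσa, mul_geom_sum, hα, sub_self]
  have ha2 : σa * (α - 1) = 0 := by rw [hσa, geom_sum_mul, hα, sub_self]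
  have hb1 : (β - 1) * σb = 0 := by rw [hσb, mul_geom_sum, hβ, sub_self]
  have hb2 : σb * (β - 1) = 0 := by rw [hσb, geom_sum_mul, hβ, sub_self]
  obtain ⟨θa, hθa⟩ := exists_theta α n
  obtain ⟨θb, hθb⟩ := exists_theta β n
  rw [← hσa] at hθa
  rw [← hσb] at hθb
  have hcomm : Commute σa β := Commute.sum_left _ _ _ fun i _ => (hαβ.pow_left i)
  have hcomm' : Commute σa σb := Commute.sum_right _ _ _ fun i _ => (hcomm.pow_right i)
  -- an inverse of n^2 on W
  obtain ⟨c', hc'⟩ : ∃ c' : ℤ, ∀ w : W, c' • ((n ^ 2 : ℕ) • w) = w := by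
    have hcop : Nat.Coprime (n ^ 2) (Nat.card W) := Nat.Coprime.pow_left 2 hn
    obtain ⟨u, v, huv⟩ := (Nat.isCoprime_iff_coprime.2 hcop)
    refine ⟨u, fun w => ?_⟩
    have h0 : (Nat.card W : ℤ) • w = 0 := by
      rw [natCast_zsmul]; exact card_nsmul_eq_zero'
    calc u • ((n ^ 2 : ℕ) • w) = (u * ((n ^ 2 : ℕ) : ℤ)) • w + (v * (Nat.card W : ℤ)) • w := by
          rw [mul_smul, mul_smul, h0, smul_zero, add_zero, natCast_zsmul]
      _ = w := by rw [← add_smul, huv, one_smul]
  let T : (W × W) →ₗ[ℤ] W :=
    (1 - β) ∘ₗ LinearMap.fst ℤ W W - (1 - α) ∘ₗ LinearMap.snd ℤ W W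
  let S : Module.End ℤ W := σa * σb
  have hTapp : ∀ p : W × W, T p = (p.1 - β p.1) - (p.2 - α p.2) := fun p => by
    simp [T]
  have hSapp : ∀ w : W, S w = σa (σb w) := fun w => rfl
  -- pointwise consequences
  have ha1' : ∀ w, α (σa w) = σa w := fun w => by
    have := congrArg (fun f : Module.End ℤ W => f w) ha1
    simp only [Module.End.mul_apply, LinearMap.sub_apply, Module.End.one_apply,
      LinearMap.zero_apply] at this
    exact sub_eq_zero.1 this
  have ha2' : ∀ w, σa (w - α w) = 0 := fun w => by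
    have := congrArg (fun f : Module.End ℤ W => f w) ha2
    simp only [Module.End.mul_apply, LinearMap.sub_apply, Module.End.one_apply,
      LinearMap.zero_apply, map_sub] at this
    rw [map_sub, ← neg_sub, this, neg_zero]
  have hb1' : ∀ w, β (σb w) = σb w := fun w => by
    have := congrArg (fun f : Module.End ℤ W => f w) hb1
    simp only [Module.End.mul_apply, LinearMap.sub_apply, Module.End.one_apply,
      LinearMap.zero_apply] at this
    exact sub_eq_zero.1 this
  have hb2' : ∀ w, σb (w - β w) = 0 := fun w => by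
    have := congrArg (fun f : Module.End ℤ W => f w) hb2
    simp only [Module.End.mul_apply, LinearMap.sub_apply, Module.End.one_apply,
      LinearMap.zero_apply, map_sub] at this
    rw [map_sub, ← neg_sub, this, neg_zero]
  have hcomm1 : ∀ w, σa (β w) = β (σa w) := fun w => by
    have := congrArg (fun f : Module.End ℤ W => f w) hcomm.eq
    simpa using this
  have hcomm2 : ∀ w, σa (σb w) = σb (σa w) := fun w => by
    have := congrArg (fun f : Module.End ℤ W => f w) hcomm'.eq
    simpa using this
  have hθa' : ∀ w, (n : ℕ) • w - σa w = θa w - α (θa w) := fun w => by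
    have := congrArg (fun f : Module.End ℤ W => f w) hθa
    simpa using this
  have hθb' : ∀ w, (n : ℕ) • w - σb w = θb w - β (θb w) := fun w => by
    have := congrArg (fun f : Module.End ℤ W => f w) hθb
    simpa using this
  have hfixa : ∀ w, α w = w → σa w = n • w := fun w hw => by
    have : ∀ i : ℕ, (α ^ i) w = w := fun i => by
      induction i with
      | zero => simp
      | succ i ih => rw [pow_succ, Module.End.mul_apply, hw, ih]
    simp [hσa, LinearMap.sum_apply, this]
  have hfixb : ∀ w, β w = w → σb w = n • w := fun w hw => by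
    have : ∀ i : ℕ, (β ^ i) w = w := fun i => by
      induction i with
      | zero => simp
      | succ i ih => rw [pow_succ, Module.End.mul_apply, hw, ih]
    simp [hσb, LinearMap.sum_apply, this]
  -- F1
  have hF1 : ∀ w, α (S w) = S w ∧ β (S w) = S w := fun w => by
    refine ⟨ha1' _, ?_⟩
    rw [hSapp, ← hcomm1, hb1']
  -- F2
  have hF2 : ∀ w, α w = w → β w = w → S w = (n ^ 2 : ℕ) • w := fun w h1 h2 => by
    rw [hSapp, hfixb w h2, map_nsmul, hfixa w h1, smul_smul, sq]
  -- F3
  have hF3 : ∀ p, S (T p) = 0 := fun p => by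
    rw [hTapp, map_sub, hSapp, hSapp, hb2', map_zero, hcomm2, ha2', map_zero, sub_zero]
  -- F4
  have hF4 : ∀ w, ∃ p, (n ^ 2 : ℕ) • w - S w = T p := fun w => by
    refine ⟨(σa (θb w), -(n • θa w)), ?_⟩
    rw [hTapp, hSapp]
    have e1 : (n ^ 2 : ℕ) • w - σa (σb w) = n • (n • w - σa w) + σa (n • w - σb w) := by
      rw [map_sub, map_nsmul, sq, mul_smul, smul_sub]; abel
    rw [e1, hθa', hθb']
    simp only [map_sub, map_neg, map_nsmul, hcomm1, smul_sub]
    abel
  -- range S is the fixed space
  have hrange : ∀ w, w ∈ LinearMap.range S ↔ (α w = w ∧ β w = w) := fun w => by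
    constructor
    · rintro ⟨w', rfl⟩; exact hF1 w'
    · rintro ⟨h1, h2⟩
      refine ⟨c' • w, ?_⟩
      rw [map_zsmul, hF2 w h1 h2, hc']
  have hker : ∀ w, w ∈ LinearMap.ker S ↔ w ∈ LinearMap.range T := fun w => by
    constructor
    · intro hw
      rw [LinearMap.mem_ker] at hw
      obtain ⟨p, hp⟩ := hF4 w
      rw [hw, sub_zero] at hp
      refine ⟨c' • p, ?_⟩
      rw [map_zsmul, ← hp, hc']
    · rintro ⟨p, rfl⟩
      exact hF3 p
  have hkerS : LinearMap.ker S = LinearMap.range T := Submodule.ext hker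
  have c1 := card_ker_mul_card_range T
  have c2 := card_ker_mul_card_range S
  have e1 : Nat.card {p : W × W // p.1 + α p.2 = p.2 + β p.1} = Nat.card (LinearMap.ker T) := by
    apply Nat.card_congr
    apply Equiv.subtypeEquivRight
    intro p
    rw [LinearMap.mem_ker, hTapp, sub_eq_zero]
    constructor
    · intro h
      have : p.1 - β p.1 = (p.1 + α p.2) - β p.1 - α p.2 := by abel
      rw [this, h]; abel
    · intro h
      have : p.1 + α p.2 = (p.1 - β p.1) + β p.1 + α p.2 := by abel
      rw [this, h]; abel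
  have e2 : Nat.card {w : W // α w = w ∧ β w = w} = Nat.card (LinearMap.range S) := by
    apply Nat.card_congr
    apply Equiv.subtypeEquivRight
    intro w
    exact (hrange w).symm
  rw [e1, e2]
  rw [Nat.card_prod] at c1
  have hpos : 0 < Nat.card (LinearMap.range T) := Nat.card_pos
  rw [hkerS] at c2
  have : Nat.card (LinearMap.ker T) * Nat.card (LinearMap.range T) =
      Nat.card W * Nat.card (LinearMap.range S) * Nat.card (LinearMap.range T) := by
    rw [← c1]
    nth_rewrite 2 [c2]
    ring
  exact Nat.eq_of_mul_eq_mul_right hpos this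


/-- Commutation in an internal semidirect product `X = V G`. -/
theorem commute_iff_of_complement {X : Type*} [Group X] (V G : Subgroup X) [V.Normal]
    (hGV : Subgroup.IsComplement' V G) (v w : V) (g h : G) :
    Commute ((v : X) * g) ((w : X) * h) ↔
      (Commute g h ∧ (v : X) * ((g : X) * w * (g : X)⁻¹) = w * ((h : X) * v * (h : X)⁻¹)) := by
  constructor
  · intro hc
    have hc' : (v : X) * g * (w * h) = w * h * (v * g) := hc
    have h1 : (v : X) * ((g : X) * w * (g : X)⁻¹) * (g * h) = w * ((h : X) * v * (h : X)⁻¹) * (h * g) := by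
      calc (v : X) * ((g : X) * w * (g : X)⁻¹) * (g * h) = (v : X) * g * (w * h) := by group
        _ = w * h * (v * g) := hc'
        _ = w * ((h : X) * v * (h : X)⁻¹) * (h * g) := by group
    have hm1 : (v : X) * ((g : X) * w * (g : X)⁻¹) ∈ V :=
      V.mul_mem v.2 (Subgroup.Normal.conj_mem inferInstance _ w.2 _)
    have hm2 : (w : X) * ((h : X) * v * (h : X)⁻¹) ∈ V :=
      V.mul_mem w.2 (Subgroup.Normal.conj_mem inferInstance _ v.2 _)
    have hinj := hGV.1
    have := @hinj (⟨_, hm1⟩, g * h) (⟨_, hm2⟩, h * g) (by simpa using h1)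
    have e1 := congrArg (fun z => ((z.1 : V) : X)) this
    have e2 := congrArg (fun z => (z.2 : G)) this
    simp only at e1 e2
    exact ⟨e2, e1⟩
  · rintro ⟨hc, he⟩
    have hc' : (g : X) * h = h * g := by
      have := congrArg (fun z : G => (z : X)) hc.eq
      simpa using this
    show (v : X) * g * (w * h) = w * h * (v * g)
    calc (v : X) * g * (w * h) = (v : X) * ((g : X) * w * (g : X)⁻¹) * (g * h) := by group
      _ = w * ((h : X) * v * (h : X)⁻¹) * (h * g) := by rw [he, hc']
      _ = w * h * (v * g) := by group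

/-- Commuting pairs of `X = V G` (internal semidirect product), fibred over pairs of `G`. -/
theorem card_comm_of_complement {X : Type*} [Group X] [Finite X] (V G : Subgroup X) [V.Normal]
    (hGV : Subgroup.IsComplement' V G) :
    Nat.card {p : X × X // Commute p.1 p.2} =
      ∑ᶠ q : G × G, Nat.card {w : V × V // Commute q.1 q.2 ∧
        (w.1 : X) * ((q.1 : X) * w.2 * (q.1 : X)⁻¹) = w.2 * ((q.2 : X) * w.1 * (q.2 : X)⁻¹)} := by
  classical
  have := Fintype.ofFinite (G × G)
  let e : V × G ≃ X := Equiv.ofBijective (fun x : V × G => (x.1 : X) * (x.2 : X)) hGV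
  let E : (G × G) × (V × V) ≃ X × X :=
    (Equiv.prodComm _ _).trans ((Equiv.prodProdProdComm V G V G).symm.trans (e.prodCongr e))
  have hE : ∀ r : (G × G) × (V × V), E r = ((r.2.1 : X) * r.1.1, (r.2.2 : X) * r.1.2) := fun r => rfl
  let P : G × G → V × V → Prop := fun q w => Commute q.1 q.2 ∧
        (w.1 : X) * ((q.1 : X) * w.2 * (q.1 : X)⁻¹) = w.2 * ((q.2 : X) * w.1 * (q.2 : X)⁻¹)
  have h1 : Nat.card {p : X × X // Commute p.1 p.2} =
      Nat.card {r : (G × G) × (V × V) // P r.1 r.2} := by
    apply Nat.card_congr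
    refine (Equiv.subtypeEquiv E ?_).symm
    intro r
    rw [hE]
    exact (commute_iff_of_complement V G hGV r.2.1 r.2.2 r.1.1 r.1.2).symm
  rw [h1, Nat.card_congr (Equiv.subtypeProdEquivSigmaSubtype P), Nat.card_sigma,
    finsum_eq_sum_of_fintype]


/-- The commutative group structure on a subgroup all of whose elements commute. -/
@[reducible] def commGroupOfAb {X : Type*} [Group X] (V : Subgroup X)
    (hab : ∀ a ∈ V, ∀ b ∈ V, a * b = b * a) : CommGroup V :=
  { (inferInstance : Group V) with mul_comm := fun a b => Subtype.ext (hab a a.2 b b.2) }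

/-- The conjugation action of a subgroup `G` on an abelian normal subgroup `V`, as
endomorphisms of the additive group `Additive V`. -/
noncomputable def conjEnd {X : Type*} [Group X] (V G : Subgroup X) [V.Normal]
    (hab : ∀ a ∈ V, ∀ b ∈ V, a * b = b * a) :
    letI := commGroupOfAb V hab
    G →* Module.End ℤ (Additive V) :=
  letI := commGroupOfAb V hab
  { toFun := fun g =>
      (MonoidHom.toAdditive (MulAut.conjNormal (g : X) : MulAut V).toMonoidHom).toIntLinearMap
    map_one' := by
      ext w
      simp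
    map_mul' := by
      intro g h
      ext w
      simp }

theorem count_pairs_mul {X : Type*} [Group X] [Finite X] (V G : Subgroup X) [V.Normal]
    (hab : ∀ a ∈ V, ∀ b ∈ V, a * b = b * a) (hcop : (Nat.card V).Coprime (Nat.card G))
    (g h : G) (hgh : Commute g h) :
    Nat.card {w : V × V // (w.1 : X) * ((g : X) * w.2 * (g : X)⁻¹) =
        w.2 * ((h : X) * w.1 * (h : X)⁻¹)} =
      Nat.card V * Nat.card {u : V // (g : X) * u * (g : X)⁻¹ = u ∧ (h : X) * u * (h : X)⁻¹ = u} := by
  classical
  letI := commGroupOfAb V hab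
  have happ : ∀ (k : G) (u : V), conjEnd V G hab k (Additive.ofMul u) =
      Additive.ofMul (⟨(k : X) * u * (k : X)⁻¹, Subgroup.Normal.conj_mem inferInstance _ u.2 _⟩ : V) := by
    intro k u
    rfl
  have hcp := count_pairs (W := Additive V) (conjEnd V G hab g) (conjEnd V G hab h)
    (by
      show conjEnd V G hab g * conjEnd V G hab h = conjEnd V G hab h * conjEnd V G hab g
      rw [← map_mul, ← map_mul, hgh.eq]) (Nat.card G)
    (by rw [← map_pow, pow_card_eq_one', map_one])
    (by rw [← map_pow, pow_card_eq_one', map_one])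
    (by
      have : Nat.card (Additive V) = Nat.card V := Nat.card_congr Additive.toMul
      rw [this]; exact hcop.symm)
  have e1 : Nat.card {w : V × V // (w.1 : X) * ((g : X) * w.2 * (g : X)⁻¹) =
        w.2 * ((h : X) * w.1 * (h : X)⁻¹)} =
      Nat.card {p : Additive V × Additive V //
        p.1 + conjEnd V G hab g p.2 = p.2 + conjEnd V G hab h p.1} := by
    apply Nat.card_congr
    refine Equiv.subtypeEquiv (Equiv.prodCongr Additive.ofMul Additive.ofMul) ?_
    rintro ⟨a, b⟩
    simp only [Equiv.prodCongr_apply, Prod.map_apply, happ]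
    rw [← ofMul_mul, ← ofMul_mul, Additive.ofMul.apply_eq_iff_eq, Subtype.ext_iff]
    simp
  have e2 : Nat.card {u : V // (g : X) * u * (g : X)⁻¹ = u ∧ (h : X) * u * (h : X)⁻¹ = u} =
      Nat.card {w : Additive V // conjEnd V G hab g w = w ∧ conjEnd V G hab h w = w} := by
    apply Nat.card_congr
    refine Equiv.subtypeEquiv Additive.ofMul ?_
    intro a
    simp only [happ]
    rw [Additive.ofMul.apply_eq_iff_eq, Additive.ofMul.apply_eq_iff_eq, Subtype.ext_iff,
      Subtype.ext_iff]
  rw [e1, e2, hcp, Nat.card_congr (Additive.toMul (α := V))]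

end Cfsg.Agent.Lib.Helper82.CommPairs
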