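import Mathlib
import Cfsg.Agent.Lib.Helper74.DixStmt
import Cfsg.Agent.Lib.Helper76.GaloisConj
import Cfsg.Agent.Lib.Helper82.DetPow

/-!
# S4472 / GALIRR (helper82)

Power-map Galois conjugates of an irreducible character are irreducible with the same
determinantal order.
-/

set_option autoImplicit false

namespace Cfsg.Agent.Lib.Helper82.DixGALIRR

open Cfsg Cfsg.Agent.Lib.Helper74.DixStmt

universe u

theorem main : GalIrr.{u} := by
  intro T _ _ ψ hψ j hj
  have hirr : IsIrrCharacter T (fun g => ψ (g ^ j)) :=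
    Cfsg.Agent.Lib.Helper76.GaloisConj.isIrrCharacter_pow hψ j hj
  refine ⟨hirr, ?_⟩
  have hfun : detChar (fun g => ψ (g ^ j)) = detChar ψ ^ j := by
    funext g
    rw [Cfsg.Agent.Lib.Helper82.DetPow.detChar_galois hψ hirr j (fun _ => rfl) g,
      Cfsg.Agent.Lib.Helper82.DetPow.detChar_pow hψ g j]
    rfl
  have hdvd : orderOf (detChar ψ) ∣ Nat.card T := by
    apply orderOf_dvd_of_pow_eq_one
    funext g
    show detChar ψ g ^ Nat.card T = 1
    rw [← Cfsg.Agent.Lib.Helper82.DetPow.detChar_pow hψ g, pow_card_eq_one',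
      Cfsg.Agent.Lib.Helper82.DetPow.detChar_one hψ]
  unfold detOrder
  rw [hfun]
  exact Nat.Coprime.orderOf_pow (Nat.Coprime.coprime_dvd_left hdvd hj.symm)

end Cfsg.Agent.Lib.Helper82.DixGALIRR
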