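import Mathlib
import Cfsg.Agent.Lib.Helper37.EluStmt

set_option autoImplicit false

/-! S5958, piece [CAUCHY]: if `r` divides `|GL_n(F)|` then the order of `q` modulo `r` is at
most `n`. -/

namespace Cfsg.Agent.Lib.Helper82.EluCAUCHY

open Cfsg.Agent.Lib.Helper37.EluStmt

universe u

/-- piece [CAUCHY] -/
theorem main : CauchyOrd.{u} := by
  intro F _ _ p _ _ r _ hrp n hdvd _
  have hr : r.Prime := Fact.out
  have hp : p.Prime := Fact.out
  rw [Matrix.card_GL_field] at hdvd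
  obtain ⟨i, -, hi⟩ := (Prime.dvd_finsetProd_iff hr.prime _).mp hdvd
  have hile : Fintype.card F ^ (i : ℕ) ≤ Fintype.card F ^ n :=
    Nat.pow_le_pow_right Fintype.card_pos i.2.le
  have hq0 : ((Fintype.card F : ℕ) : ZMod r) ≠ 0 := by
    intro h0
    rw [ZMod.natCast_eq_zero_iff] at h0
    obtain ⟨k, -, hk⟩ := FiniteField.card F p
    rw [hk] at h0
    have h1 := hr.dvd_of_dvd_pow h0
    exact hrp ((Nat.prime_dvd_prime_iff_eq hr hp).mp h1)
  have h1 : ((Fintype.card F : ℕ) : ZMod r) ^ n = ((Fintype.card F : ℕ) : ZMod r) ^ (i : ℕ) := by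
    have h2 := (ZMod.natCast_eq_zero_iff _ r).mpr hi
    rw [Nat.cast_sub hile, Nat.cast_pow, Nat.cast_pow] at h2
    exact sub_eq_zero.mp h2
  have h3 : ((Fintype.card F : ℕ) : ZMod r) ^ (n - (i : ℕ)) = 1 := by
    have h4 : n = (i : ℕ) + (n - (i : ℕ)) := by
      have := i.2
      omega
    have h5 : ((Fintype.card F : ℕ) : ZMod r) ^ (i : ℕ) *
        ((Fintype.card F : ℕ) : ZMod r) ^ (n - (i : ℕ)) =
        ((Fintype.card F : ℕ) : ZMod r) ^ (i : ℕ) * 1 := by
      rw [← pow_add, ← h4, h1, mul_one]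
    exact mul_left_cancel₀ (pow_ne_zero _ hq0) h5
  have h6 := orderOf_dvd_of_pow_eq_one h3
  have h7 : 0 < n - (i : ℕ) := by
    have := i.2
    omega
  have h8 := Nat.le_of_dvd h7 h6
  omega

end Cfsg.Agent.Lib.Helper82.EluCAUCHY
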