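import Mathlib
import Cfsg.Agent.Lib.Helper37.EluStmt

set_option autoImplicit false

/-! S5958, piece [FREE]: the number of ordered decompositions is divisible by `t!` (the symmetric
group acts freely by permuting the summands). -/

namespace Cfsg.Agent.Lib.Helper82.EluFREE

open Cfsg.Agent.Lib.Helper37.EluStmt

universe u

/-- permuting the summands of a decomposition -/
@[reducible] def permAct (F : Type u) [Field F] (n a t : ℕ) :
    MulAction (Equiv.Perm (Fin t))
      {D : Fin t → Submodule F (Fin n → F) // Cfsg.Geo.IsMDecomposition a D} where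
  smul σ D := ⟨fun j => D.1 (σ⁻¹ j),
    { two_le := D.2.two_le
      pos := D.2.pos
      finrank_eq := fun i => D.2.finrank_eq _
      indep := D.2.indep.comp (σ⁻¹ : Equiv.Perm (Fin t)).injective
      iSup_eq_top := by
        rw [← D.2.iSup_eq_top]
        exact Equiv.iSup_comp (σ⁻¹ : Equiv.Perm (Fin t)) }⟩
  one_smul D := Subtype.ext (funext fun j => by
    show D.1 ((1 : Equiv.Perm (Fin t))⁻¹ j) = D.1 j
    rw [inv_one]
    rfl)
  mul_smul σ τ D := Subtype.ext (funext fun j => by
    show D.1 ((σ * τ)⁻¹ j) = D.1 (τ⁻¹ (σ⁻¹ j))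
    rw [mul_inv_rev]
    rfl)

theorem decomp_injective {F : Type u} [Field F] {n a t : ℕ}
    {D : Fin t → Submodule F (Fin n → F)} (hD : Cfsg.Geo.IsMDecomposition a D) :
    Function.Injective D := by
  apply hD.indep.injective
  intro i h
  have h1 := hD.finrank_eq i
  rw [h, finrank_bot] at h1
  have := hD.pos
  omega

/-- piece [FREE] -/
theorem main : FreeDvd.{u} := by
  intro F _ _ n a t
  let _ := permAct F n a t
  have hfree : ∀ D : {D : Fin t → Submodule F (Fin n → F) // Cfsg.Geo.IsMDecomposition a D},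
      MulAction.stabilizer (Equiv.Perm (Fin t)) D = ⊥ := by
    intro D
    rw [eq_bot_iff]
    intro σ hσ
    rw [MulAction.mem_stabilizer_iff] at hσ
    rw [Subgroup.mem_bot]
    have h1 : ∀ j, D.1 (σ⁻¹ j) = D.1 j := fun j => congrFun (congrArg Subtype.val hσ) j
    have h2 : σ⁻¹ = 1 := by
      apply Equiv.ext
      intro j
      exact decomp_injective D.2 (h1 j)
    exact inv_eq_one.mp h2
  have e := MulAction.selfEquivOrbitsQuotientProd hfree
  rw [Nat.card_congr e, Nat.card_prod, Nat.card_perm, Nat.card_fin]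
  exact dvd_mul_left _ _

end Cfsg.Agent.Lib.Helper82.EluFREE
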