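import Mathlib
import Cfsg.Agent.Lib.Helper17.CentFix
import Cfsg.Agent.Lib.Helper17.FixCount
import Cfsg.Agent.Lib.Helper17.Embed
import Cfsg.Agent.Lib.Helper17.Classes

/-!
Order `459648 = 2^7 * 3^3 * 7 * 19`: the group-theoretic endgame (piece `E` of S1022).
-/

set_option autoImplicit false

namespace Cfsg.Agent.Lib.Helper82.O459648

open Subgroup MulAction
open Cfsg.Agent.Lib.Helper17.Sylow Cfsg.Agent.Lib.Helper17.Sylow2
open Cfsg.Agent.Lib.Helper17.CentFix Cfsg.Agent.Lib.Helper17.Commuting
open Cfsg.Agent.Lib.Helper17.FixCount Cfsg.Agent.Lib.Helper17.FixedPoints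
open Cfsg.Agent.Lib.Helper17.Classes Cfsg.Agent.Lib.Helper17.Embed

variable {G : Type*} [Group G]

theorem comm_conj (g x t : G) (h : (g⁻¹ * x * g) * t = t * (g⁻¹ * x * g)) :
    (g * t * g⁻¹) * x = x * (g * t * g⁻¹) := by
  calc (g * t * g⁻¹) * x = g * (t * (g⁻¹ * x * g)) * g⁻¹ := by group
    _ = g * ((g⁻¹ * x * g) * t) * g⁻¹ := by rw [h]
    _ = x * (g * t * g⁻¹) := by group

/-- The number of cosets of `C_G(t)` fixed by `x` is the number of conjugates of `t` that
commute with `x`. -/
theorem card_fixedBy_eq_ncard [Finite G] (x t : G) :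
    Nat.card (fixedBy (G ⧸ centralizer ({t} : Set G)) x) =
      {s : G | s ∈ centralizer ({x} : Set G) ∧ ∃ g : G, g * t * g⁻¹ = s}.ncard := by
  have h1 := card_conj_mem (centralizer ({t} : Set G)) x
  have h2 := card_conj_mem (centralizer ({x} : Set G)) t
  have h3 := card_mul_card_fixedBy (centralizer ({x} : Set G)) t
  have h4 : Nat.card {g : G // g⁻¹ * x * g ∈ centralizer ({t} : Set G)} =
      Nat.card {g : G // g⁻¹ * t * g ∈ centralizer ({x} : Set G)} := by
    apply Nat.card_congr
    exact
      { toFun := fun g => ⟨g.1⁻¹, by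
          have hg := g.2
          rw [mem_centralizer_singleton_iff] at hg ⊢
          rw [inv_inv]
          exact comm_conj g.1 x t hg⟩
        invFun := fun g => ⟨g.1⁻¹, by
          have hg := g.2
          rw [mem_centralizer_singleton_iff] at hg ⊢
          rw [inv_inv]
          exact comm_conj g.1 t x hg⟩
        left_inv := fun g => Subtype.ext (inv_inv _)
        right_inv := fun g => Subtype.ext (inv_inv _) }
  have hpos : 0 < Nat.card (centralizer ({t} : Set G)) := Nat.card_pos
  apply Nat.eq_of_mul_eq_mul_left hpos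
  rw [← h1, h4, h2, h3]

/-- A central element of order two cannot exist in a simple group of order `459648`. -/
theorem centralizer_ne_top [Finite G] [IsSimpleGroup G]
    (h : Nat.card G = 459648) (t : G) (ht : orderOf t = 2) :
    centralizer ({t} : Set G) ≠ ⊤ := by
  intro htop
  have hcomm : ∀ g : G, g * t = t * g := fun g =>
    mem_centralizer_singleton_iff.mp (htop ▸ mem_top g)
  have hnorm : (zpowers t).Normal := by
    refine ⟨fun n hn g => ?_⟩
    obtain ⟨i, rfl⟩ := mem_zpowers_iff.mp hn
    have hc : Commute g (t ^ i) := Commute.zpow_right (hcomm g) i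
    have h1 : g * t ^ i * g⁻¹ = t ^ i := by
      rw [hc.eq]
      group
    rw [h1]
    exact zpow_mem (mem_zpowers t) i
  rcases hnorm.eq_bot_or_eq_top with h0 | h0
  · have : t = 1 := by
      have h1 : t ∈ zpowers t := mem_zpowers t
      rw [h0] at h1
      exact mem_bot.mp h1
    rw [this, orderOf_one] at ht
    omega
  · have h1 : Nat.card (zpowers t) = 2 := by rw [Nat.card_zpowers, ht]
    rw [h0, card_top, h] at h1
    omega

theorem index_list : ∀ n : ℕ, 19 ≤ n → n ≤ 52 → n ∣ 24192 →
    n = 21 ∨ n = 24 ∨ n = 27 ∨ n = 28 ∨ n = 32 ∨ n = 36 ∨ n = 42 ∨ n = 48 := by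
  intro n h1 h2 h3
  interval_cases n <;> omega

/-- The possible indices of the centralizer of an involution commuting with an element of order
`19`, and the number of fixed points of that element. -/
theorem index_data [Finite G] [IsSimpleGroup G] (h : Nat.card G = 459648)
    (hG : ¬ IsMulCommutative G) (x t : G) (hx : orderOf x = 19) (ht : orderOf t = 2)
    (hxt : x * t = t * x)
    (hbig : 8778 ≤ Nat.card (centralizer ({t} : Set G))) (F : ℕ)
    (hF : Nat.card (fixedBy (G ⧸ centralizer ({t} : Set G)) x) = F) (hF1 : 1 ≤ F) (hF3 : F ≤ 3) :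
    F = 2 := by
  have hp19 : Fact (Nat.Prime 19) := ⟨by norm_num⟩
  have hH : centralizer ({t} : Set G) ≠ ⊤ := centralizer_ne_top h t ht
  have hidx := (centralizer ({t} : Set G)).card_mul_index
  rw [h] at hidx
  have hfac := two_mul_card_dvd_factorial hG (centralizer ({t} : Set G)) hH
  rw [h] at hfac
  have h19 : 19 ∣ (centralizer ({t} : Set G)).index.factorial :=
    Dvd.dvd.trans (by norm_num) hfac
  have hn19 : 19 ≤ (centralizer ({t} : Set G)).index :=
    (Nat.Prime.dvd_factorial (by norm_num)).mp h19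
  have hxH : x ∈ centralizer ({t} : Set G) := mem_centralizer_singleton_iff.mpr hxt
  have hdvd : 19 ∣ Nat.card (centralizer ({t} : Set G)) := hx ▸ orderOf_dvd_card_of_mem hxH
  obtain ⟨m, hm⟩ := hdvd
  have hn52 : (centralizer ({t} : Set G)).index ≤ 52 := by
    by_contra hcon
    push Not at hcon
    have h1 : 8778 * 53 ≤ Nat.card (centralizer ({t} : Set G)) *
        (centralizer ({t} : Set G)).index := Nat.mul_le_mul hbig hcon
    omega
  have hndvd : (centralizer ({t} : Set G)).index ∣ 24192 := by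
    refine ⟨m, ?_⟩
    rw [hm] at hidx
    have h2 : 19 * (m * (centralizer ({t} : Set G)).index) = 19 * 24192 := by
      rw [← mul_assoc, hidx]
    have h3 := Nat.eq_of_mul_eq_mul_left (by norm_num : 0 < 19) h2
    rw [← h3, mul_comm]
  have hlist := index_list _ hn19 hn52 hndvd
  have hmod := card_modEq_card_fixedBy (X := G ⧸ centralizer ({t} : Set G)) (p := 19) (n := 1) x
    (by rw [pow_one, ← hx]; exact pow_orderOf_eq_one x)
  rw [hF] at hmod
  have hmod' : (centralizer ({t} : Set G)).index % 19 = F % 19 := hmod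
  rcases hlist with h1 | h1 | h1 | h1 | h1 | h1 | h1 | h1 <;> rw [h1] at hmod' <;> omega

/-- The involutions of `C_G(P)`: their number is odd and at most three. -/
theorem card_involutions [Finite G] (P : Sylow 19 G) (hP : Nat.card (P : Subgroup G) = 19)
    (hC : Nat.card (centralizer ((P : Subgroup G) : Set G)) = 76) :
    Odd {s : G | s ∈ centralizer ((P : Subgroup G) : Set G) ∧ orderOf s = 2}.ncard ∧
    {s : G | s ∈ centralizer ((P : Subgroup G) : Set G) ∧ orderOf s = 2}.ncard ≤ 3 := by
  have hp19 : Fact (Nat.Prime 19) := ⟨by norm_num⟩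
  constructor
  · have h1 := odd_card_involutions ↥(centralizer ((P : Subgroup G) : Set G))
      (by rw [hC]; decide)
    have h2 : Nat.card {y : ↥(centralizer ((P : Subgroup G) : Set G)) // orderOf y = 2} =
        {s : G | s ∈ centralizer ((P : Subgroup G) : Set G) ∧ orderOf s = 2}.ncard := by
      rw [← Nat.card_coe_set_eq]
      apply Nat.card_congr
      exact
        { toFun := fun y => ⟨y.1.1, y.1.2, by rw [Subgroup.orderOf_coe]; exact y.2⟩
          invFun := fun s => ⟨⟨s.1, s.2.1⟩, by rw [Subgroup.orderOf_mk]; exact s.2.2⟩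
          left_inv := fun y => rfl
          right_inv := fun s => rfl }
    rw [← h2]
    exact h1
  · have hPC : (P : Subgroup G) ≤ centralizer ((P : Subgroup G) : Set G) :=
      le_centralizer_of_card_prime _ hP
    have hinj : Function.Injective
        (fun su : ↥{s : G | s ∈ centralizer ((P : Subgroup G) : Set G) ∧ s * s = 1} ×
            ↥(P : Subgroup G) =>
          (⟨(su.1 : G) * (su.2 : G), mul_mem su.1.2.1 (hPC su.2.2)⟩ :
            ↥(centralizer ((P : Subgroup G) : Set G)))) := by
      rintro ⟨s, u⟩ ⟨s', u'⟩ hab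
      have h1 : (s : G) * (u : G) = (s' : G) * (u' : G) := congrArg Subtype.val hab
      have hw : (u' : G) * (u : G)⁻¹ ∈ (P : Subgroup G) := mul_mem u'.2 (inv_mem u.2)
      have hs : (s : G) = (s' : G) * ((u' : G) * (u : G)⁻¹) := by
        have h0 : (s : G) = (s : G) * (u : G) * (u : G)⁻¹ := by group
        rw [h0, h1]
        group
      have hcomm : ((u' : G) * (u : G)⁻¹) * (s' : G) = (s' : G) * ((u' : G) * (u : G)⁻¹) :=
        (mem_centralizer_iff.mp s'.2.1) _ hw
      have hw2 : ((u' : G) * (u : G)⁻¹) * ((u' : G) * (u : G)⁻¹) = 1 := by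
        have h2 : (s : G) * (s : G) = 1 := s.2.2
        rw [hs] at h2
        have h3 : (s' : G) * ((u' : G) * (u : G)⁻¹) * ((s' : G) * ((u' : G) * (u : G)⁻¹)) =
            (s' : G) * (s' : G) * (((u' : G) * (u : G)⁻¹) * ((u' : G) * (u : G)⁻¹)) := by
          calc (s' : G) * ((u' : G) * (u : G)⁻¹) * ((s' : G) * ((u' : G) * (u : G)⁻¹))
              = (s' : G) * (((u' : G) * (u : G)⁻¹) * (s' : G)) * ((u' : G) * (u : G)⁻¹) := by
                group
            _ = (s' : G) * ((s' : G) * ((u' : G) * (u : G)⁻¹)) * ((u' : G) * (u : G)⁻¹) := by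
                rw [hcomm]
            _ = _ := by group
        have h4 : (s' : G) * (s' : G) = 1 := s'.2.2
        rw [h3, h4, one_mul] at h2
        exact h2
      have hw1 : (u' : G) * (u : G)⁻¹ = 1 := by
        by_contra hne
        have h5 := (zpowers_eq_of_mem P hP _ hw hne).1
        have h6 : orderOf ((u' : G) * (u : G)⁻¹) ∣ 2 :=
          orderOf_dvd_of_pow_eq_one (by rw [pow_two]; exact hw2)
        rw [h5] at h6
        norm_num at h6
      have hu : (u' : G) = (u : G) := by
        have h0 : (u' : G) = (u' : G) * (u : G)⁻¹ * (u : G) := by group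
        rw [h0, hw1, one_mul]
      have hs' : (s : G) = (s' : G) := by rw [hs, hw1, mul_one]
      exact Prod.ext (Subtype.ext hs') (Subtype.ext hu.symm)
    have hcard := Nat.card_le_card_of_injective _ hinj
    rw [Nat.card_prod, hC, hP, Nat.card_coe_set_eq] at hcard
    have hsub : {s : G | s ∈ centralizer ((P : Subgroup G) : Set G) ∧ orderOf s = 2} ⊆
        {s : G | s ∈ centralizer ((P : Subgroup G) : Set G) ∧ s * s = 1} \ {1} := by
      intro s hs
      refine ⟨⟨hs.1, ?_⟩, ?_⟩
      · have h0 := pow_orderOf_eq_one s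
        rw [hs.2, pow_two] at h0
        exact h0
      · intro h1
        rw [Set.mem_singleton_iff] at h1
        have h2 := hs.2
        rw [h1, orderOf_one] at h2
        omega
    have h1J : (1 : G) ∈ {s : G | s ∈ centralizer ((P : Subgroup G) : Set G) ∧ s * s = 1} :=
      ⟨one_mem _, mul_one 1⟩
    have hle := Set.ncard_le_ncard hsub
    rw [Set.ncard_sdiff_singleton_of_mem h1J] at hle
    omega

/-- The conjugates of `t` that commute with `x`. -/
def conjSet (x t : G) : Set G :=
  {s : G | s ∈ centralizer ({x} : Set G) ∧ ∃ g : G, g * t * g⁻¹ = s}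

/-- Piece `E` of S1022: the final contradiction for the order `459648`. -/
theorem final_contra {G : Type*} [Group G] [Finite G] [IsSimpleGroup G]
    (h : Nat.card G = 459648) (P : Sylow 19 G)
    (hC : Nat.card (Subgroup.centralizer ((P : Subgroup G) : Set G)) = 76)
    (hbig : ∀ t : G, t ∈ Subgroup.centralizer ((P : Subgroup G) : Set G) → orderOf t = 2 →
      8778 ≤ Nat.card (Subgroup.centralizer ({t} : Set G))) : False := by
  have hp19 : Fact (Nat.Prime 19) := ⟨by norm_num⟩
  have hG : ¬ IsMulCommutative G := not_comm_of_not_prime (by rw [h]; norm_num)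
  have hP : Nat.card (P : Subgroup G) = 19 := by
    have h0 := card_sylow_subgroup (p := 19) (k := 1) (m := 24192) (by rw [h]; norm_num) (by norm_num) P
    simpa using h0
  obtain ⟨x, hxP, hx1⟩ : ∃ x ∈ (P : Subgroup G), x ≠ 1 := by
    by_contra hcon
    push Not at hcon
    have hbot : (P : Subgroup G) = ⊥ := (Subgroup.eq_bot_iff_forall _).mpr hcon
    rw [hbot, Subgroup.card_bot] at hP
    omega
  obtain ⟨hx19, hzp⟩ := zpowers_eq_of_mem P hP x hxP hx1
  have hCx : centralizer ({x} : Set G) = centralizer ((P : Subgroup G) : Set G) := by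
    rw [centralizer_singleton_eq, hzp]
  obtain ⟨hodd, hle3⟩ := card_involutions P hP hC
  have hT : ∀ t ∈ {s : G | s ∈ centralizer ((P : Subgroup G) : Set G) ∧ orderOf s = 2},
      (conjSet x t).ncard = 2 ∧
      conjSet x t ⊆ {s : G | s ∈ centralizer ((P : Subgroup G) : Set G) ∧ orderOf s = 2} ∧
      t ∈ conjSet x t := by
    intro t ht
    have htx : x * t = t * x := (mem_centralizer_iff.mp ht.1) x hxP
    have hsub : conjSet x t ⊆
        {s : G | s ∈ centralizer ((P : Subgroup G) : Set G) ∧ orderOf s = 2} := by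
      rintro s ⟨hs, g, rfl⟩
      exact ⟨hCx ▸ hs, by rw [orderOf_conj_eq]; exact ht.2⟩
    have hmem : t ∈ conjSet x t := ⟨hCx.symm ▸ ht.1, 1, by group⟩
    have hF : Nat.card (fixedBy (G ⧸ centralizer ({t} : Set G)) x) = (conjSet x t).ncard :=
      card_fixedBy_eq_ncard x t
    have hF1 : 1 ≤ (conjSet x t).ncard := (Set.ncard_pos (Set.toFinite _)).mpr ⟨t, hmem⟩
    have hF3 : (conjSet x t).ncard ≤ 3 := (Set.ncard_le_ncard hsub).trans hle3
    exact ⟨index_data h hG x t hx19 ht.2 htx (hbig t ht.1 ht.2) _ hF hF1 hF3, hsub, hmem⟩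
  have hIne : {s : G | s ∈ centralizer ((P : Subgroup G) : Set G) ∧ orderOf s = 2}.Nonempty := by
    rw [← Set.ncard_pos (Set.toFinite _)]
    exact hodd.pos
  obtain ⟨t, ht⟩ := hIne
  obtain ⟨hTt2, hTtsub, -⟩ := hT t ht
  have hI3 : {s : G | s ∈ centralizer ((P : Subgroup G) : Set G) ∧ orderOf s = 2}.ncard = 3 := by
    have h0 := Set.ncard_le_ncard hTtsub
    obtain ⟨k, hk⟩ := hodd
    omega
  obtain ⟨s, hsI, hsT⟩ := Set.exists_mem_notMem_of_ncard_lt_ncard
    (s := conjSet x t)
    (t := {s : G | s ∈ centralizer ((P : Subgroup G) : Set G) ∧ orderOf s = 2})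
    (by rw [hTt2, hI3]; norm_num)
  obtain ⟨hTs2, hTssub, -⟩ := hT s hsI
  have hunion := Set.ncard_union_add_ncard_inter (conjSet x t) (conjSet x s)
  have hule : (conjSet x t ∪ conjSet x s).ncard ≤ 3 :=
    hI3 ▸ Set.ncard_le_ncard (Set.union_subset hTtsub hTssub)
  have hinter : 0 < (conjSet x t ∩ conjSet x s).ncard := by omega
  obtain ⟨r, ⟨-, g, hg⟩, ⟨-, g', hg'⟩⟩ := (Set.ncard_pos (Set.toFinite _)).mp hinter
  apply hsT
  refine ⟨hCx.symm ▸ hsI.1, g'⁻¹ * g, ?_⟩
  have h0 : s = g'⁻¹ * r * g' := by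
    rw [← hg']
    group
  rw [h0, ← hg]
  group

end Cfsg.Agent.Lib.Helper82.O459648
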