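import Mathlib
import Cfsg.Agent.Lib.Helper94.OPStmt

/-!
# S5989 / NEGRED (call by helper94)

An isometry `x` of the plus form with `x ^ r = -1`, `r` odd, has the same invariant subspaces
as the isometry `y = -x`, and `y ^ r = 1`.
-/

set_option autoImplicit false

universe u

open scoped Matrix

namespace Cfsg.Agent.Lib.Helper82.OPNEGRED

open Cfsg.Agent.Lib.Helper94.OPStmt

theorem quadFormPlus_neg {F : Type u} [Field F] (d : ℕ) (v : P d → F) :
    Cfsg.quadFormPlus d F (-v) = Cfsg.quadFormPlus d F v := by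
  unfold Cfsg.quadFormPlus
  apply Finset.sum_congr rfl
  intro i _
  simp

theorem main : NegRed.{u} := by
  intro F _ _ d r hr x hx hxr
  classical
  have hval : ((-x : Matrix.GeneralLinearGroup (P d) F) : Matrix (P d) (P d) F)
      = -(x : Matrix (P d) (P d) F) := Units.val_neg x
  refine ⟨-x, ?_, ?_, ?_⟩
  · intro u v
    show Cfsg.quadFormPlus d F (((-x : Matrix.GeneralLinearGroup (P d) F) :
      Matrix (P d) (P d) F) *ᵥ u) = Cfsg.quadFormPlus d F u
    rw [hval, Matrix.neg_mulVec, quadFormPlus_neg]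
    exact hx u u
  · apply Units.ext
    rw [Units.val_pow_eq_pow_val, hval, Odd.neg_pow hr, Units.val_one]
    rw [Units.val_pow_eq_pow_val] at hxr
    rw [hxr, neg_neg]
  · intro W
    unfold StabP
    rw [hval]
    constructor
    · rintro h _ ⟨w, hw, rfl⟩
      have h1 : Matrix.toLin' (-(x : Matrix (P d) (P d) F)) w ∈ W :=
        h (Submodule.mem_map_of_mem hw)
      rw [Matrix.toLin'_apply, Matrix.neg_mulVec] at h1
      rw [Matrix.toLin'_apply]
      exact (Submodule.neg_mem_iff W).1 h1
    · rintro h _ ⟨w, hw, rfl⟩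
      have h1 : Matrix.toLin' (x : Matrix (P d) (P d) F) w ∈ W :=
        h (Submodule.mem_map_of_mem hw)
      rw [Matrix.toLin'_apply] at h1
      rw [Matrix.toLin'_apply, Matrix.neg_mulVec]
      exact (Submodule.neg_mem_iff W).2 h1


end Cfsg.Agent.Lib.Helper82.OPNEGRED
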