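import Mathlib
import Cfsg.Agent.Lib.Helper37.OrtStmt

/-!
# S5981 piece DIAGSYM (helper82)

The eigenvalues of a diagonalizable similarity of a non-degenerate symmetric form with multiplier
`c` are symmetric under `μ ↦ c / μ`, with multiplicities.
-/

set_option autoImplicit false

namespace Cfsg.Agent.Lib.Helper82.OrtDIAGSYM

open Matrix
open Cfsg.Agent.Lib.Helper37.OrtStmt

universe u

/-- in an invertible matrix, a set of rows supported on a set of columns is no larger than the
set of columns -/
theorem card_le_of_support {F : Type u} [Field F] {n : ℕ} (M : Matrix (Fin n) (Fin n) F)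
    (hM : M.det ≠ 0) (p q : Fin n → Prop) (h : ∀ j k, p j → M j k ≠ 0 → q k) :
    Nat.card {j // p j} ≤ Nat.card {k // q k} := by
  classical
  rw [Nat.card_eq_fintype_card, Nat.card_eq_fintype_card]
  obtain ⟨N, hN⟩ : ∃ N : Matrix {j // p j} {k // q k} F, N = Matrix.of fun j k => M j.1 k.1 :=
    ⟨_, rfl⟩
  have hsurj : Function.Surjective N.mulVecLin := by
    intro w
    obtain ⟨w', hw'⟩ : ∃ w' : Fin n → F, w' = fun j => if hj : p j then w ⟨j, hj⟩ else 0 :=
      ⟨_, rfl⟩
    obtain ⟨v, hv⟩ : ∃ v : Fin n → F, v = M⁻¹ *ᵥ w' := ⟨_, rfl⟩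
    have hMv : M *ᵥ v = w' := by
      rw [hv, Matrix.mulVec_mulVec, Matrix.mul_nonsing_inv _ (isUnit_iff_ne_zero.mpr hM),
        Matrix.one_mulVec]
    refine ⟨fun k => v k.1, ?_⟩
    funext j
    have h1 : (M *ᵥ v) j.1 = w j := by
      rw [hMv, hw']
      simp only
      rw [dif_pos j.2]
    rw [Matrix.mulVecLin_apply, ← h1]
    show ∑ k : {k // q k}, N j k * v k.1 = ∑ k, M j.1 k * v k
    rw [hN]
    simp only [Matrix.of_apply]
    rw [← Finset.sum_subtype (Finset.univ.filter q) (by simp) (fun k => M j.1 k * v k)]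
    apply Finset.sum_filter_of_ne
    intro k _ hk
    exact h j.1 k j.2 (left_ne_zero_of_mul hk)
  have hr : N.rank = Fintype.card {j // p j} := by
    unfold Matrix.rank
    rw [LinearMap.range_eq_top.mpr hsurj, finrank_top, Module.finrank_fintype_fun_eq_card]
  rw [← hr]
  exact Matrix.rank_le_card_width N

theorem main : DiagSym.{u} := by
  intro F _ n x T S' lam c hT hlam hxT hS' hS'det hx μ
  obtain ⟨S'', hS''⟩ : ∃ S'' : Matrix (Fin n) (Fin n) F, S'' = Tᵀ * S' * T := ⟨_, rfl⟩
  have hS''det : S''.det ≠ 0 := by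
    rw [hS'', Matrix.det_mul, Matrix.det_mul, Matrix.det_transpose]
    exact mul_ne_zero (mul_ne_zero hT hS'det) hT
  have hD : Matrix.diagonal lam * S'' * Matrix.diagonal lam = c • S'' := by
    rw [hS'']
    calc Matrix.diagonal lam * (Tᵀ * S' * T) * Matrix.diagonal lam
        = (T * Matrix.diagonal lam)ᵀ * S' * (T * Matrix.diagonal lam) := by
          rw [Matrix.transpose_mul, Matrix.diagonal_transpose]
          simp only [Matrix.mul_assoc]
      _ = (x * T)ᵀ * S' * (x * T) := by rw [hxT]
      _ = Tᵀ * (xᵀ * S' * x) * T := by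
          rw [Matrix.transpose_mul]
          simp only [Matrix.mul_assoc]
      _ = c • (Tᵀ * S' * T) := by rw [hx, Matrix.mul_smul, Matrix.smul_mul]
  have hent : ∀ j k, S'' j k ≠ 0 → lam j * lam k = c := by
    intro j k hjk
    have h1 := congrFun (congrFun hD j) k
    rw [Matrix.mul_diagonal, Matrix.diagonal_mul, Matrix.smul_apply, smul_eq_mul] at h1
    have h2 : (lam j * lam k - c) * S'' j k = 0 := by linear_combination h1
    rcases mul_eq_zero.mp h2 with h | h
    · exact sub_eq_zero.mp h
    · exact absurd h hjk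
  apply le_antisymm
  · apply card_le_of_support S'' hS''det
    intro j k hj hjk
    have h1 := hent j k hjk
    rw [hj] at h1
    rw [mul_comm]
    exact h1
  · apply card_le_of_support S'' hS''det
    intro k j hk hkj
    have h1 := hent k j hkj
    exact mul_left_cancel₀ (hlam k) (h1.trans hk.symm)

end Cfsg.Agent.Lib.Helper82.OrtDIAGSYM
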