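import Mathlib
import Cfsg.Agent.Lib.Helper37.OrtStmt

/-!
# S5981 piece SYM35 (helper82)

`r ∈ {3, 5}`: every `r`-tuple in `ZMod r` with sum `0` is invariant under some reflection
`a ↦ t - a`, the matching of the indices being an involution with a fixed point.
After translating to `e 0 = 0` this is a finite check over the involutions of `Fin r`.
-/

set_option autoImplicit false

namespace Cfsg.Agent.Lib.Helper82.OrtSYM35

open Cfsg.Agent.Lib.Helper37.OrtStmt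

/-- the involutions of `Fin 3` -/
def invs3 : List (Fin 3 → Fin 3) := [![0,1,2], ![0,2,1], ![1,0,2], ![2,1,0]]

/-- the involutions of `Fin 5` -/
def invs5 : List (Fin 5 → Fin 5) :=
  [![0,1,2,3,4], ![0,1,2,4,3], ![0,1,3,2,4], ![0,1,4,3,2], ![0,2,1,3,4], ![0,2,1,4,3],
   ![0,3,2,1,4], ![0,3,4,1,2], ![0,4,2,3,1], ![0,4,3,2,1], ![1,0,2,3,4], ![1,0,2,4,3],
   ![1,0,3,2,4], ![1,0,4,3,2], ![2,1,0,3,4], ![2,1,0,4,3], ![2,3,0,1,4], ![2,4,0,3,1],
   ![3,1,2,0,4], ![3,1,4,0,2], ![3,2,1,0,4], ![3,4,2,0,1], ![4,1,2,3,0], ![4,1,3,2,0],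
   ![4,2,1,3,0], ![4,3,2,1,0]]

theorem d3 : ∀ a : ZMod 3, ∃ t : ZMod 3, ∃ f ∈ invs3,
    (∀ j, (![0, a, -a] : Fin 3 → ZMod 3) (f j) = t - (![0, a, -a] : Fin 3 → ZMod 3) j) ∧
    (∀ j, f (f j) = j) ∧ ∃ j₀, f j₀ = j₀ := by decide +kernel

theorem d5 : ∀ a b c : ZMod 5, ∃ t : ZMod 5, ∃ f ∈ invs5,
    (∀ j, (![0, a, b, c, -(a + b + c)] : Fin 5 → ZMod 5) (f j) =
      t - (![0, a, b, c, -(a + b + c)] : Fin 5 → ZMod 5) j) ∧
    (∀ j, f (f j) = j) ∧ ∃ j₀, f j₀ = j₀ := by decide +kernel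

/-- normalisation: it suffices to treat the tuples with `e 0 = 0` -/
theorem reduce (r : ℕ) [NeZero r]
    (h : ∀ e : Fin r → ZMod r, e 0 = 0 → ∑ j, e j = 0 →
      ∃ (t : ZMod r) (f : Fin r → Fin r), (∀ j, e (f j) = t - e j) ∧ (∀ j, f (f j) = j) ∧
        ∃ j₀, f j₀ = j₀)
    (e : Fin r → ZMod r) (he : ∑ j, e j = 0) :
    ∃ (t : ZMod r) (π : Equiv.Perm (Fin r)), (∀ j, π (π j) = j) ∧
      (∀ j, e (π j) = t - e j) ∧ ∃ j₀, π j₀ = j₀ := by
  obtain ⟨t, f, h1, h2, j₀, h3⟩ := h (fun j => e j - e 0) (sub_self _) (by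
    rw [Finset.sum_sub_distrib, he, Finset.sum_const, Finset.card_univ, Fintype.card_fin,
      nsmul_eq_mul, ZMod.natCast_self, zero_mul, sub_zero])
  refine ⟨t + e 0 + e 0, Function.Involutive.toPerm f h2, h2, ?_, j₀, h3⟩
  intro j
  have h4 : e (f j) - e 0 = t - (e j - e 0) := h1 j
  show e (f j) = t + e 0 + e 0 - e j
  linear_combination h4

theorem main : Sym35 := by
  intro r _ hr e he
  rcases hr with rfl | rfl
  · apply reduce 3 _ e he
    intro e h0 hs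
    have h2 : e 2 = -(e 1) := by
      rw [Fin.sum_univ_three, h0] at hs
      linear_combination hs
    have he' : e = ![0, e 1, -(e 1)] := by
      funext j
      fin_cases j
      · exact h0
      · rfl
      · exact h2
    obtain ⟨t, f, -, h1, h3, h4⟩ := d3 (e 1)
    rw [← he'] at h1
    exact ⟨t, f, h1, h3, h4⟩
  · apply reduce 5 _ e he
    intro e h0 hs
    have h2 : e 4 = -(e 1 + e 2 + e 3) := by
      rw [Fin.sum_univ_five, h0] at hs
      linear_combination hs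
    have he' : e = ![0, e 1, e 2, e 3, -(e 1 + e 2 + e 3)] := by
      funext j
      fin_cases j
      · exact h0
      · rfl
      · rfl
      · rfl
      · exact h2
    obtain ⟨t, f, -, h1, h3, h4⟩ := d5 (e 1) (e 2) (e 3)
    rw [← he'] at h1
    exact ⟨t, f, h1, h3, h4⟩

end Cfsg.Agent.Lib.Helper82.OrtSYM35
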