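import Mathlib
import Cfsg.Agent.Lib.Helper78.PRQDefs
import Cfsg.Agent.Lib.CT.PairCount
import Cfsg.Agent.Lib.CT.Wedderburn
import Cfsg.Agent.Lib.Helper80.Integrality

/-!
# Piece L3 of S0998: the relation in the principal 3-block with degrees `1, a, a + 1`
-/

set_option autoImplicit false

namespace Cfsg.Agent.Lib.Helper82.PRQThree

open Cfsg Cfsg.Agent.Lib.Helper78.PRQDefs

universe u

/-- A character vanishing on `P ∖ 1` has degree divisible by `|P|`. -/
theorem dvd_degree_of_vanish {G : Type u} [Group G] [Finite G] (P : Subgroup G)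
    (ψ : IrrCharacter G) (hv : ∀ u : G, u ∈ P → u ≠ 1 → (ψ : G → ℂ) u = 0) :
    Nat.card P ∣ charDegree (ψ : G → ℂ) := by
  classical
  have hGfin : Fintype G := Fintype.ofFinite G
  have hPfin : Fintype ↥P := Fintype.ofFinite _
  have hch := Cfsg.Agent.Lib.CT.Wedderburn.isCharacter_of_irr ψ.2
  obtain ⟨m, hm⟩ := Cfsg.Agent.Lib.CT.PairCount.char_sum_subgroup hch P
  have hsum : ∑ w : ↥P, (ψ : G → ℂ) (w : G) = (ψ : G → ℂ) 1 := by
    rw [Finset.sum_eq_single (1 : ↥P)]
    · rfl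
    · intro w _ hw1
      exact hv w w.2 (fun h => hw1 (Subtype.ext h))
    · intro h
      exact absurd (Finset.mem_univ _) h
  rw [hsum, Cfsg.Agent.Lib.Helper80.Integrality.apply_one_eq_charDegree hch] at hm
  refine ⟨m, ?_⟩
  exact_mod_cast hm

theorem signs_i (a : ℕ) (ha : 2 ≤ a) (ε s1 s2 : ℤ) (hε : ε = 1 ∨ ε = -1)
    (h1 : s1 = 1 ∨ s1 = -1) (h2 : s2 = 1 ∨ s2 = -1)
    (h : ε * ((a : ℤ) + 1) = s1 * 1 + s2 * (a : ℤ)) : s1 = ε ∧ s2 = ε := by
  rcases hε with rfl | rfl <;> rcases h1 with rfl | rfl <;> rcases h2 with rfl | rfl <;>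
    first
      | exact ⟨rfl, rfl⟩
      | (exfalso; omega)

theorem signs_ii (a : ℕ) (ha : 2 ≤ a) (ε s1 s2 : ℤ) (hε : ε = 1 ∨ ε = -1)
    (h1 : s1 = 1 ∨ s1 = -1) (h2 : s2 = 1 ∨ s2 = -1)
    (h : ε * (a : ℤ) = s1 * 1 + s2 * ((a : ℤ) + 1)) : s1 = -ε ∧ s2 = ε := by
  rcases hε with rfl | rfl <;> rcases h1 with rfl | rfl <;> rcases h2 with rfl | rfl <;>
    first
      | exact ⟨rfl, rfl⟩
      | (exfalso; omega)

theorem signs_iii (a : ℕ) (ha : 2 ≤ a) (ε s1 s2 : ℤ) (hε : ε = 1 ∨ ε = -1)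
    (h1 : s1 = 1 ∨ s1 = -1) (h2 : s2 = 1 ∨ s2 = -1)
    (h : ε * 1 = s1 * (a : ℤ) + s2 * ((a : ℤ) + 1)) : s1 = -ε ∧ s2 = ε := by
  rcases hε with rfl | rfl <;> rcases h1 with rfl | rfl <;> rcases h2 with rfl | rfl <;>
    first
      | exact ⟨rfl, rfl⟩
      | (exfalso; omega)

theorem eq_pair {α : Type*} [DecidableEq α] (X : Finset α) (hX : X.card = 2) (u v : α)
    (hu : u ∈ X) (hv : v ∈ X) (huv : u ≠ v) : X = {u, v} := by
  symm
  apply Finset.eq_of_subset_of_card_le
  · intro w hw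
    rw [Finset.mem_insert, Finset.mem_singleton] at hw
    rcases hw with rfl | rfl
    · exact hu
    · exact hv
  · rw [hX, Finset.card_pair huv]

/-- [L3] The relation in the principal 3-block with three characters of degrees 1, a, a+1. -/
theorem three_rel {G : Type u} [Group G] [Finite G] (P : Subgroup G) (hP : Nat.card P = 3)
    (X Y : Finset (IrrCharacter G)) (εX : IrrCharacter G → ℤ) (ε : ℤ) (h : Pkg 3 P 2 X Y εX ε)
    (τ A B : IrrCharacter G) (hτ : ∀ g : G, (τ : G → ℂ) g = 1)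
    (hA1 : 1 < charDegree (A : G → ℂ)) (hA : ¬ 3 ∣ charDegree (A : G → ℂ))
    (hB : ¬ 3 ∣ charDegree (B : G → ℂ))
    (hAB : charDegree (B : G → ℂ) = charDegree (A : G → ℂ) + 1) :
    ∀ g : G, ¬ 3 ∣ orderOf g → (B : G → ℂ) g = 1 + (A : G → ℂ) g := by
  classical
  have hmemXY : ∀ ψ : IrrCharacter G, ¬ 3 ∣ charDegree (ψ : G → ℂ) → ψ ∈ X ∨ ψ ∈ Y := by
    intro ψ hψ
    by_contra hcon
    push Not at hcon
    have h1 := dvd_degree_of_vanish P ψ (h.vanish ψ hcon.1 hcon.2)
    rw [hP] at h1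
    exact hψ h1
  have hdeg : ∀ ψ : IrrCharacter G, (ψ : G → ℂ) 1 = (charDegree (ψ : G → ℂ) : ℂ) := fun ψ =>
    Cfsg.Agent.Lib.Helper80.Integrality.apply_one_eq_charDegree
      (Cfsg.Agent.Lib.CT.Wedderburn.isCharacter_of_irr ψ.2)
  have hτdeg : charDegree (τ : G → ℂ) = 1 := by
    have h1 := hdeg τ
    rw [hτ 1] at h1
    exact_mod_cast h1.symm
  have hτXY := h.triv_mem τ hτ
  have hAXY := hmemXY A hA
  have hBXY := hmemXY B hB
  have hτA : τ ≠ A := by
    intro h0
    rw [← h0, hτdeg] at hA1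
    omega
  have hτB : τ ≠ B := by
    intro h0
    rw [← h0, hτdeg] at hAB
    omega
  have hAB' : A ≠ B := by
    intro h0
    rw [h0] at hAB
    omega
  have hcX : X.card = 2 := h.cardX
  have hcY : Y.card = 1 := h.cardY
  obtain ⟨θ, hY⟩ := Finset.card_eq_one.mp hcY
  have hYmem : ∀ ψ : IrrCharacter G, ψ ∈ Y → ψ = θ := by
    intro ψ hψ
    rw [hY] at hψ
    exact Finset.mem_singleton.mp hψ
  have hreg1 : ¬ 3 ∣ orderOf (1 : G) := by
    rw [orderOf_one]
    norm_num
  have hε0 : (ε : ℂ) ≠ 0 := by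
    rcases h.sign with h0 | h0 <;> rw [h0] <;> norm_num
  have ha2 : 2 ≤ charDegree (A : G → ℂ) := hA1
  intro g hg
  by_cases hBY : B ∈ Y
  · -- `Y = {B}`, `X = {τ, A}`
    have hτX : τ ∈ X := hτXY.resolve_right (fun h0 => hτB ((hYmem τ h0).trans (hYmem B hBY).symm))
    have hAX : A ∈ X := hAXY.resolve_right (fun h0 => hAB' ((hYmem A h0).trans (hYmem B hBY).symm))
    have hXeq := eq_pair X hcX τ A hτX hAX hτA
    have hrel1 := h.rel B hBY 1 hreg1
    rw [hXeq, Finset.sum_pair hτA, hdeg B, hdeg τ, hdeg A, hAB, hτdeg] at hrel1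
    have hrelZ : ε * ((charDegree (A : G → ℂ) : ℤ) + 1) =
        εX τ * 1 + εX A * (charDegree (A : G → ℂ) : ℤ) := by
      exact_mod_cast hrel1
    obtain ⟨hs1, hs2⟩ := signs_i _ ha2 ε (εX τ) (εX A) h.sign (h.signX τ hτX) (h.signX A hAX) hrelZ
    have hrelg := h.rel B hBY g hg
    rw [hXeq, Finset.sum_pair hτA, hs1, hs2, hτ g] at hrelg
    apply mul_left_cancel₀ hε0
    rw [hrelg]
    ring
  · have hBX : B ∈ X := hBXY.resolve_right hBY
    by_cases hAY : A ∈ Y
    · -- `Y = {A}`, `X = {τ, B}`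
      have hτX : τ ∈ X :=
        hτXY.resolve_right (fun h0 => hτA ((hYmem τ h0).trans (hYmem A hAY).symm))
      have hXeq := eq_pair X hcX τ B hτX hBX hτB
      have hrel1 := h.rel A hAY 1 hreg1
      rw [hXeq, Finset.sum_pair hτB, hdeg B, hdeg τ, hdeg A, hAB, hτdeg] at hrel1
      have hrelZ : ε * (charDegree (A : G → ℂ) : ℤ) =
          εX τ * 1 + εX B * ((charDegree (A : G → ℂ) : ℤ) + 1) := by
        exact_mod_cast hrel1
      obtain ⟨hs1, hs2⟩ :=
        signs_ii _ ha2 ε (εX τ) (εX B) h.sign (h.signX τ hτX) (h.signX B hBX) hrelZ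
      have hrelg := h.rel A hAY g hg
      rw [hXeq, Finset.sum_pair hτB, hs1, hs2, hτ g] at hrelg
      apply mul_left_cancel₀ hε0
      push_cast at hrelg
      linear_combination -hrelg
    · -- `Y = {τ}`, `X = {A, B}`
      have hAX : A ∈ X := hAXY.resolve_right hAY
      have hτY : τ ∈ Y := by
        rcases hτXY with h0 | h0
        · exfalso
          have h3 : ({τ, A, B} : Finset (IrrCharacter G)) ⊆ X := by
            intro w hw
            simp only [Finset.mem_insert, Finset.mem_singleton] at hw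
            rcases hw with rfl | rfl | rfl
            · exact h0
            · exact hAX
            · exact hBX
          have h4 := Finset.card_le_card h3
          rw [Finset.card_insert_of_notMem (by simp [hτA, hτB]), Finset.card_pair hAB', hcX] at h4
          omega
        · exact h0
      have hXeq := eq_pair X hcX A B hAX hBX hAB'
      have hrel1 := h.rel τ hτY 1 hreg1
      rw [hXeq, Finset.sum_pair hAB', hdeg B, hdeg τ, hdeg A, hAB, hτdeg] at hrel1
      have hrelZ : ε * 1 = εX A * (charDegree (A : G → ℂ) : ℤ) +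
          εX B * ((charDegree (A : G → ℂ) : ℤ) + 1) := by
        exact_mod_cast hrel1
      obtain ⟨hs1, hs2⟩ :=
        signs_iii _ ha2 ε (εX A) (εX B) h.sign (h.signX A hAX) (h.signX B hBX) hrelZ
      have hrelg := h.rel τ hτY g hg
      rw [hXeq, Finset.sum_pair hAB', hs1, hs2, hτ g] at hrelg
      apply mul_left_cancel₀ hε0
      push_cast at hrelg
      linear_combination -hrelg

end Cfsg.Agent.Lib.Helper82.PRQThree
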