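import Mathlib
import Cfsg.Agent.Lib.Helper30.PSgStmt
import Cfsg.Agent.Lib.Helper69.PNil
import Cfsg.Agent.Lib.Helper69.Conj

set_option autoImplicit false

/-! S4321, piece [FIN]: the final step. -/

namespace Cfsg.Agent.Lib.Helper82.PSgFIN

open Subgroup
open Cfsg.Agent.Lib.Helper55.ClassSize Cfsg.Agent.Lib.Helper30.PSgStmt

universe u

/-- piece [FIN] -/
theorem main : FinDef.{u} := by
  intro G _ _ p _ P u v hPn hu hpu hv hyp
  by_contra hne
  -- `v ∈ P`
  have hvP : v ∈ (P : Subgroup G) := by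
    have hpg : IsPGroup p (Subgroup.zpowers v) :=
      Cfsg.Agent.Lib.Helper69.PNil.isPGroup_zpowers v ⟨1, by rw [hv, pow_one]⟩
    obtain ⟨Q, hQ⟩ := hpg.exists_le_sylow
    obtain ⟨g, rfl⟩ := MulAction.exists_smul_eq G P Q
    have : (P : Subgroup G).Normal := hPn
    rw [Sylow.smul_eq_of_normal] at hQ
    exact hQ (Subgroup.mem_zpowers v)
  obtain ⟨t, ht, htv⟩ := Nat.exists_prime_and_dvd hne
  have hft : Fact t.Prime := ⟨ht⟩
  obtain ⟨T⟩ : Nonempty (Sylow t G) := inferInstance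
  -- conjugation inside `P`
  have hconjP : ∀ g : G, ∀ y ∈ (P : Subgroup G), g * y * g⁻¹ ∈ (P : Subgroup G) :=
    fun g y hy => hPn.conj_mem y hy g
  -- Claim A
  have hA : ∀ z ∈ (P : Subgroup G), p ∣ cs z →
      ∃ x ∈ (P : Subgroup G), x * z * x⁻¹ ∈ centralizer ((T : Subgroup G) : Set G) := by
    intro z hz hpz
    obtain ⟨hcop, hcl⟩ := hyp z hz hpz
    have htz : ¬ t ∣ (centralizer ({z} : Set G)).index := by
      intro h
      have h1 : t ∣ Nat.gcd (cs z) (cs v) := Nat.dvd_gcd h htv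
      rw [Nat.Coprime.gcd_eq_one hcop] at h1
      exact ht.one_lt.ne' (Nat.dvd_one.mp h1)
    obtain ⟨g, hg⟩ := Cfsg.Agent.Lib.Helper69.Conj.exists_conj_mem_centralizer_sylow T z htz
    obtain ⟨x, hx, hgx⟩ := hcl g
    exact ⟨x, hx, hgx ▸ hg⟩
  -- Claim B
  have hB : ∀ z ∈ (P : Subgroup G), (∃ y ∈ (P : Subgroup G), y * z ≠ z * y) → p ∣ cs z := by
    rintro z hz ⟨y, hy, hyz⟩
    by_contra hnp
    obtain ⟨g, hg⟩ := Cfsg.Agent.Lib.Helper69.Conj.exists_conj_mem_centralizer_sylow P z hnp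
    have h1 := (Subgroup.mem_centralizer_iff.mp hg) (g * y * g⁻¹) (hconjP g y hy)
    apply hyz
    have h2 : g * (y * z) * g⁻¹ = g * (z * y) * g⁻¹ := by
      have e1 : g * (y * z) * g⁻¹ = g * y * g⁻¹ * (g * z * g⁻¹) := by group
      have e2 : g * (z * y) * g⁻¹ = g * z * g⁻¹ * (g * y * g⁻¹) := by group
      rw [e1, e2]
      exact h1
    exact mul_left_cancel (mul_right_cancel h2)
  -- `Z(P) C₀ = P`
  obtain ⟨M, hMdef⟩ : ∃ M : Subgroup ↥(P : Subgroup G), M = center ↥(P : Subgroup G) ⊔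
      (centralizer ((T : Subgroup G) : Set G)).subgroupOf (P : Subgroup G) := ⟨_, rfl⟩
  have hMtop : M = ⊤ := by
    apply Cfsg.Agent.Lib.Helper69.PNil.eq_top_of_forall_conj_mem
    intro y
    by_cases hc : y ∈ center ↥(P : Subgroup G)
    · refine ⟨1, ?_⟩
      rw [one_mul, inv_one, mul_one, hMdef]
      exact Subgroup.mem_sup_left hc
    · rw [Subgroup.mem_center_iff] at hc
      obtain ⟨w, hw⟩ := not_forall.mp hc
      have hpy : p ∣ cs (y : G) :=
        hB y.1 y.2 ⟨w.1, w.2, fun h => hw (Subtype.ext h)⟩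
      obtain ⟨x, hx, hxy⟩ := hA y.1 y.2 hpy
      refine ⟨⟨x, hx⟩, ?_⟩
      rw [hMdef]
      exact Subgroup.mem_sup_right (Subgroup.mem_subgroupOf.mpr hxy)
  -- non-central elements of `P` centralize `T`
  have hD : ∀ z ∈ (P : Subgroup G), (∃ y ∈ (P : Subgroup G), y * z ≠ z * y) →
      z ∈ centralizer ((T : Subgroup G) : Set G) := by
    intro z hz hnc
    obtain ⟨x, hx, hxz⟩ := hA z hz (hB z hz hnc)
    have hxM : (⟨x, hx⟩ : ↥(P : Subgroup G)) ∈ ((center ↥(P : Subgroup G) ⊔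
        (centralizer ((T : Subgroup G) : Set G)).subgroupOf (P : Subgroup G) :
          Subgroup ↥(P : Subgroup G)) : Set ↥(P : Subgroup G)) := by
      rw [← hMdef, hMtop]
      exact Subgroup.mem_top _
    rw [Subgroup.normal_mul] at hxM
    obtain ⟨z0, hz0, c0, hc0, hzc⟩ := Set.mem_mul.mp hxM
    have hc0' : (c0 : G) ∈ centralizer ((T : Subgroup G) : Set G) :=
      Subgroup.mem_subgroupOf.mp hc0
    have hx' : x = (z0 : G) * (c0 : G) := by
      have := congrArg (Subtype.val) hzc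
      exact this.symm
    have hz0c : ∀ w ∈ (P : Subgroup G), (z0 : G) * w = w * (z0 : G) := by
      intro w hw
      have h1 := (Subgroup.mem_center_iff.mp hz0) ⟨w, hw⟩
      have h2 := congrArg (Subtype.val) h1
      exact h2.symm
    have hczc : (c0 : G) * z * (c0 : G)⁻¹ ∈ centralizer ((T : Subgroup G) : Set G) := by
      have e1 : x * z * x⁻¹ = (c0 : G) * z * (c0 : G)⁻¹ := by
        rw [hx']
        have e2 : (z0 : G) * (c0 : G) * z * ((z0 : G) * (c0 : G))⁻¹ =
            (z0 : G) * ((c0 : G) * z * (c0 : G)⁻¹) * (z0 : G)⁻¹ := by group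
        rw [e2, hz0c _ (hconjP _ z hz), mul_inv_cancel_right]
      rw [← e1]
      exact hxz
    have e3 : z = (c0 : G)⁻¹ * ((c0 : G) * z * (c0 : G)⁻¹) * (c0 : G) := by group
    rw [e3]
    exact Subgroup.mul_mem _ (Subgroup.mul_mem _ (Subgroup.inv_mem _ hc0') hczc) hc0'
  -- `u` is not central in `P`
  have hunc : ∃ y ∈ (P : Subgroup G), y * u ≠ u * y := by
    by_contra hcon
    have hall : ∀ y ∈ (P : Subgroup G), y * u = u * y := by
      intro y hy
      by_contra h
      exact hcon ⟨y, hy, h⟩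
    have hle : (P : Subgroup G) ≤ centralizer ({u} : Set G) := fun y hy => mem_cent.mpr (hall y hy)
    exact P.not_dvd_index (dvd_trans hpu (Subgroup.index_dvd_of_le hle))
  obtain ⟨y0, hy0, hy0u⟩ := hunc
  have huT : u ∈ centralizer ((T : Subgroup G) : Set G) := hD u hu ⟨y0, hy0, hy0u⟩
  have hPT : ∀ a ∈ (P : Subgroup G), a ∈ centralizer ((T : Subgroup G) : Set G) := by
    intro a ha
    by_cases hac : ∃ y ∈ (P : Subgroup G), y * a ≠ a * y
    · exact hD a ha hac
    · have hall : ∀ y ∈ (P : Subgroup G), y * a = a * y := by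
        intro y hy
        by_contra h
        exact hac ⟨y, hy, h⟩
      have hau : a * u ∈ centralizer ((T : Subgroup G) : Set G) := by
        refine hD (a * u) (Subgroup.mul_mem _ ha hu) ⟨y0, hy0, ?_⟩
        intro h
        apply hy0u
        have e1 : y0 * (a * u) = a * (y0 * u) := by
          rw [← mul_assoc, hall y0 hy0, mul_assoc]
        have e2 : a * u * y0 = a * (u * y0) := mul_assoc _ _ _
        rw [e1, e2] at h
        exact mul_left_cancel h
      have e3 : a = a * u * u⁻¹ := by group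
      rw [e3]
      exact Subgroup.mul_mem _ hau (Subgroup.inv_mem _ huT)
  -- `T ≤ C(v)`
  have hTv : (T : Subgroup G) ≤ centralizer ({v} : Set G) := by
    intro τ hτ
    exact mem_cent.mpr ((Subgroup.mem_centralizer_iff.mp (hPT v hvP)) τ hτ)
  exact T.not_dvd_index (dvd_trans htv (Subgroup.index_dvd_of_le hTv))

end Cfsg.Agent.Lib.Helper82.PSgFIN
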