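import Mathlib
import Cfsg.Agent.Lib.Helper98.PSpStmt

/-!
# S3421 / FAITH: the action on the Sylow `p`-subgroups is faithful

An element `g` fixing every Sylow subgroup: for `u ∈ P` the commutator `[g, u]` lies in `P` and
fixes every Sylow subgroup, hence is trivial (`P ∩ N(P') = P ∩ P' = 1`); so `g` centralises `P`,
lies in `P`, and is trivial.
-/

set_option autoImplicit false

namespace Cfsg.Agent.Lib.Helper82.PSpFAITH

open Cfsg.Agent.Lib.Helper98

universe u

theorem main (hTI : PSpStmt.TI.{u}) (hCP : PSpStmt.CP.{u}) (hNP : PSpStmt.NP.{u})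
    (hCardP : PSpStmt.CardP.{u}) : PSpStmt.Faith.{u} := by
  intro G _ p q m₁ m₂ h
  have hfin := h.fin
  have hfact : Fact p.Prime := ⟨h.pp⟩
  have hq := h.q_ge
  obtain ⟨hN, hcard⟩ := hNP G p q m₁ m₂ h
  have key : ∀ g : G, (∀ a : Sylow p G, g • a = a) → g = 1 := by
    intro g hg
    obtain ⟨P⟩ : Nonempty (Sylow p G) := inferInstance
    have hnt : Nontrivial (Sylow p G) := by
      rw [← Finite.one_lt_card_iff_nontrivial, hcard]
      omega
    obtain ⟨P', hP'⟩ := exists_ne P
    have hPq := hCardP G p q m₁ m₂ h P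
    -- elements of `P` fixing `P'` are trivial
    have hfix : ∀ x ∈ (P : Subgroup G), x • P' = P' → x = 1 := by
      intro x hx hxP'
      have h1 : x ∈ (P : Subgroup G) ⊓ Subgroup.normalizer (P' : Set G) :=
        ⟨hx, Sylow.smul_eq_iff_mem_normalizer.mp hxP'⟩
      rw [IsPGroup.inf_normalizer_sylow P.isPGroup' P', hTI G p q m₁ m₂ h P P' hP'.symm] at h1
      exact Subgroup.mem_bot.mp h1
    -- `g` centralises `P`
    have hcomm : ∀ u ∈ (P : Subgroup G), g * u * g⁻¹ * u⁻¹ = 1 := by
      intro u hu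
      apply hfix
      · have hgN : g ∈ Subgroup.normalizer ((P : Subgroup G) : Set G) :=
          Sylow.smul_eq_iff_mem_normalizer.mp (hg P)
        have h1 : g * u * g⁻¹ ∈ (P : Subgroup G) := (Subgroup.mem_normalizer_iff.mp hgN u).mp hu
        exact (P : Subgroup G).mul_mem h1 ((P : Subgroup G).inv_mem hu)
      · rw [mul_smul, mul_smul, mul_smul]
        have h1 : g⁻¹ • (u⁻¹ • P') = u⁻¹ • P' := inv_smul_eq_iff.mpr (hg (u⁻¹ • P')).symm
        rw [h1, smul_inv_smul]
        exact hg P'
    have hntP : Nontrivial ↥(P : Subgroup G) := by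
      rw [← Finite.one_lt_card_iff_nontrivial, hPq]
      omega
    obtain ⟨u, hu1⟩ := exists_ne (1 : ↥(P : Subgroup G))
    have hgu : Commute g (u : G) := by
      have h1 := hcomm u u.2
      have h2 : g * u * g⁻¹ = u := mul_inv_eq_one.mp h1
      show g * u = u * g
      calc g * u = g * u * g⁻¹ * g := by group
        _ = u * g := by rw [h2]
    have hgP : g ∈ (P : Subgroup G) :=
      hCP G p q m₁ m₂ h P u g u.2 (fun h0 => hu1 (Subtype.ext h0)) hgu
    exact hfix g hgP (hg P')
  constructor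
  intro g₁ g₂ hg
  have h1 := key (g₂⁻¹ * g₁) (fun a => by rw [mul_smul, hg a, inv_smul_smul])
  exact (inv_mul_eq_one.mp h1).symm

end Cfsg.Agent.Lib.Helper82.PSpFAITH
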