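import Mathlib
import Cfsg.Agent.Lib.Helper98.PSpStmt

/-!
# S3421 / REG: a Sylow `p`-subgroup is regular on the other Sylow `p`-subgroups

The orbit map `P → Syl_p(G) ∖ {P}`, `u ↦ u • P'`, is injective (`P ∩ N(P') = P ∩ P' = 1`) between
sets of the same size `q`.
-/

set_option autoImplicit false

namespace Cfsg.Agent.Lib.Helper82.PSpREG

open Cfsg.Agent.Lib.Helper98

universe u

theorem main (hTI : PSpStmt.TI.{u}) (hNP : PSpStmt.NP.{u}) (hCardP : PSpStmt.CardP.{u}) :
    PSpStmt.Reg.{u} := by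
  intro G _ p q m₁ m₂ h P P' P'' hP' hP''
  classical
  have hfin := h.fin
  have hfact : Fact p.Prime := ⟨h.pp⟩
  obtain ⟨-, hcard⟩ := hNP G p q m₁ m₂ h
  have hPq := hCardP G p q m₁ m₂ h P
  -- freeness
  have hfree : ∀ Q : Sylow p G, Q ≠ P → ∀ x ∈ (P : Subgroup G), x • Q = Q → x = 1 := by
    intro Q hQ x hx hxQ
    have h1 : x ∈ (P : Subgroup G) ⊓ Subgroup.normalizer (Q : Set G) :=
      ⟨hx, Sylow.smul_eq_iff_mem_normalizer.mp hxQ⟩
    rw [IsPGroup.inf_normalizer_sylow P.isPGroup' Q, hTI G p q m₁ m₂ h P Q hQ.symm] at h1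
    exact Subgroup.mem_bot.mp h1
  have hPfix : ∀ x ∈ (P : Subgroup G), x • P = P := fun x hx =>
    Sylow.smul_eq_iff_mem_normalizer.mpr (Subgroup.le_normalizer hx)
  -- the orbit map
  let f : ↥(P : Subgroup G) → {Q : Sylow p G // Q ≠ P} := fun u => ⟨(u : G) • P', by
    intro hEq
    apply hP'
    have h1 : (u : G) • P' = (u : G) • P := hEq.trans (hPfix u u.2).symm
    exact MulAction.injective (u : G) h1⟩
  have hinj : Function.Injective f := by
    intro u v huv
    have h1 : (u : G) • P' = (v : G) • P' := congrArg Subtype.val huv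
    have h2 : ((v : G)⁻¹ * (u : G)) • P' = P' := by
      rw [mul_smul, h1, inv_smul_smul]
    have h3 := hfree P' hP' _ ((P : Subgroup G).mul_mem ((P : Subgroup G).inv_mem v.2) u.2) h2
    exact Subtype.ext (inv_mul_eq_one.mp h3).symm
  have hc : Nat.card {Q : Sylow p G // Q ≠ P} ≤ Nat.card ↥(P : Subgroup G) := by
    have h1 : Nat.card (Option {Q : Sylow p G // Q ≠ P}) = Nat.card (Sylow p G) :=
      Nat.card_congr (Equiv.optionSubtypeNe P)
    rw [Finite.card_option, hcard] at h1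
    omega
  have hbij := hinj.bijective_of_nat_card_le hc
  obtain ⟨u, hu⟩ := hbij.2 ⟨P'', hP''⟩
  have hu' : (u : G) • P' = P'' := congrArg Subtype.val hu
  refine ⟨u, hu', ?_⟩
  intro v hv
  apply hinj
  apply Subtype.ext
  show (v : G) • P' = (u : G) • P'
  rw [hv, hu']

end Cfsg.Agent.Lib.Helper82.PSpREG
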