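import Mathlib
import Cfsg.Agent.Lib.Helper98.PSpStmt

/-!
# S3421 / Z4: a non-identity element fixing two Sylow `p`-subgroups

`n ∈ N(P) ∖ P` (as `|N(P)| = q (q - 1) / 2 > q`), corrected by the element `u ∈ P` moving `n • P'`
back to `P'`.
-/

set_option autoImplicit false

namespace Cfsg.Agent.Lib.Helper82.PSpZ4

open Cfsg.Agent.Lib.Helper98

universe u

theorem main (hReg : PSpStmt.Reg.{u}) (hNP : PSpStmt.NP.{u}) (hCardP : PSpStmt.CardP.{u}) :
    PSpStmt.Z4.{u} := by
  intro G _ p q m₁ m₂ h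
  have hfin := h.fin
  have hfact : Fact p.Prime := ⟨h.pp⟩
  have hq := h.q_ge
  obtain ⟨hN, hcard⟩ := hNP G p q m₁ m₂ h
  obtain ⟨P⟩ : Nonempty (Sylow p G) := inferInstance
  -- another Sylow subgroup
  have hnt : Nontrivial (Sylow p G) := by
    rw [← Finite.one_lt_card_iff_nontrivial, hcard]
    omega
  obtain ⟨P', hP'⟩ := exists_ne P
  -- an element of `N(P)` outside `P`
  have hPq := hCardP G p q m₁ m₂ h P
  have hNc := hN P
  obtain ⟨n, hnN, hnP⟩ : ∃ n ∈ Subgroup.normalizer ((P : Subgroup G) : Set G),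
      n ∉ (P : Subgroup G) := by
    by_contra hcon
    have hle : Subgroup.normalizer ((P : Subgroup G) : Set G) ≤ (P : Subgroup G) := by
      intro n hn
      by_contra hnP
      exact hcon ⟨n, hn, hnP⟩
    have h1 := Subgroup.card_le_of_le hle
    rw [hPq] at h1
    have h4 : q * 4 ≤ q * (q - 1) := Nat.mul_le_mul_left q (by omega)
    rw [← hNc] at h4
    omega
  have hnfix : n • P = P := Sylow.smul_eq_iff_mem_normalizer.mpr hnN
  have hP'' : n • P' ≠ P := by
    intro hEq
    apply hP'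
    have h1 : n • P' = n • P := hEq.trans hnfix.symm
    exact MulAction.injective n h1
  obtain ⟨u, hu, -⟩ := hReg G p q m₁ m₂ h P (n • P') P' hP'' hP'
  refine ⟨(u : G) * n, ?_, P, P', hP'.symm, ?_, ?_⟩
  · intro h1
    apply hnP
    have h2 : n = (u : G)⁻¹ := eq_inv_of_mul_eq_one_right h1
    rw [h2]
    exact (P : Subgroup G).inv_mem u.2
  · rw [mul_smul, hnfix]
    exact Sylow.smul_eq_iff_mem_normalizer.mpr (Subgroup.le_normalizer u.2)
  · rw [mul_smul]
    exact hu

end Cfsg.Agent.Lib.Helper82.PSpZ4
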