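import Mathlib
import Cfsg.Agent.Lib.Helper46.PsuStmt

set_option autoImplicit false

/-!
# S5172: small lemmas on the projective group `PGJ D n` shared by the plumbing pieces
-/

namespace Cfsg.Agent.Lib.Helper82.PsuProj

open Matrix Cfsg.Agent.Lib.Helper43.SUBase Cfsg.Agent.H84.PslDefs
  Cfsg.Agent.Lib.Helper46.PsuDefs Cfsg.Agent.Lib.Helper46.PsuStmt

universe u

variable {K : Type u} [Field K] {q : ℕ} (D : QD K q) (n : ℕ)

theorem mem_Ubar_iff (x : PGJ D n) :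
    x ∈ Ubar D n ↔
      ∃ u : ↥(GJ D n), (u : SpecialLinearGroup (Fin n) K) ∈ UJ D n ∧ prJ D n u = x := by
  rw [Helper46.PsuDefs.Ubar, Subgroup.mem_map]
  constructor
  · rintro ⟨u, hu, rfl⟩
    exact ⟨u, Subgroup.mem_subgroupOf.1 hu, rfl⟩
  · rintro ⟨u, hu, rfl⟩
    exact ⟨u, Subgroup.mem_subgroupOf.2 hu, rfl⟩

theorem mem_QWbar_iff (x : PGJ D n) :
    x ∈ QWbar D n ↔
      ∃ u : ↥(GJ D n), (u : SpecialLinearGroup (Fin n) K) ∈ QW D n ∧ prJ D n u = x := by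
  rw [QWbar, Subgroup.mem_map]
  constructor
  · rintro ⟨u, hu, rfl⟩
    exact ⟨u, Subgroup.mem_subgroupOf.1 hu, rfl⟩
  · rintro ⟨u, hu, rfl⟩
    exact ⟨u, Subgroup.mem_subgroupOf.2 hu, rfl⟩

theorem mem_RCbar_iff (x : PGJ D n) :
    x ∈ RCbar D n ↔
      ∃ u : ↥(GJ D n), (u : SpecialLinearGroup (Fin n) K) ∈ RC D n ∧ prJ D n u = x := by
  rw [RCbar, Subgroup.mem_map]
  constructor
  · rintro ⟨u, hu, rfl⟩
    exact ⟨u, Subgroup.mem_subgroupOf.1 hu, rfl⟩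
  · rintro ⟨u, hu, rfl⟩
    exact ⟨u, Subgroup.mem_subgroupOf.2 hu, rfl⟩

theorem prJ_eq_one_iff (z : ↥(GJ D n)) :
    prJ D n z = 1 ↔ z ∈ Subgroup.center ↥(GJ D n) := by
  constructor
  · intro h
    have h1 : z ∈ (prJ D n).ker := h
    rwa [ker_prJ] at h1
  · intro h
    have h1 : z ∈ (prJ D n).ker := by
      rw [ker_prJ]
      exact h
    exact h1

theorem prJ_eq_iff (a b : ↥(GJ D n)) :
    prJ D n a = prJ D n b ↔ b⁻¹ * a ∈ Subgroup.center ↥(GJ D n) := by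
  rw [← prJ_eq_one_iff, map_mul, map_inv, inv_mul_eq_one, eq_comm]

/-- a central element of `GJ` is a scalar matrix -/
theorem scalar_of_center [Fintype K] (hZ0 : CenterScalar.{u}) (hn : 4 ≤ n) (z : ↥(GJ D n))
    (hz : z ∈ Subgroup.center ↥(GJ D n)) :
    ∃ c : K, ∀ i j : Fin n,
      (z : SpecialLinearGroup (Fin n) K) i j = if i = j then c else 0 := by
  apply hZ0 n K q D hn (z : SpecialLinearGroup (Fin n) K) z.2
  intro g hg
  have := Subgroup.mem_center_iff.1 hz ⟨g, hg⟩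
  exact congrArg Subtype.val this

end Cfsg.Agent.Lib.Helper82.PsuProj
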