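import Mathlib
import Cfsg.Agent.Lib.Helper46.PsuStmt
import Cfsg.Agent.Lib.Helper82.PsuProj

set_option autoImplicit false

/-!
# S5172, piece DNEP: `DataNe` from `CenterScalar` and `UJNontrivial`
-/

namespace Cfsg.Agent.Lib.Helper82.PsuDNEP

open Matrix Cfsg.Agent.Lib.Helper43.SUBase Cfsg.Agent.H84.PslDefs
  Cfsg.Agent.Lib.Helper46.PsuDefs Cfsg.Agent.Lib.Helper46.PsuStmt
  Cfsg.Agent.Lib.Helper82.PsuProj

universe u

theorem main : Cfsg.Agent.Lib.Helper46.PsuStmt.DataNeOfParts.{u} := by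
  intro hZ0 hNT n K _ _ q D hn hbot
  obtain ⟨u, hu, i, j, hij, huij⟩ := hNT n K q D hn
  have huG : u ∈ GJ D n := (Subgroup.mem_inf.1 hu).1
  have hmem : prJ D n ⟨u, huG⟩ ∈ Ubar D n := (mem_Ubar_iff D n _).2 ⟨⟨u, huG⟩, hu, rfl⟩
  rw [hbot, Subgroup.mem_bot] at hmem
  have hcen := (prJ_eq_one_iff D n _).1 hmem
  obtain ⟨c, hc⟩ := scalar_of_center D n hZ0 hn _ hcen
  have h1 := hc i j
  rw [if_neg hij] at h1
  exact huij h1

end Cfsg.Agent.Lib.Helper82.PsuDNEP
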