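import Mathlib
import Cfsg.Agent.Lib.Helper46.PsuStmt
import Cfsg.Agent.Lib.Helper82.PsuProj

set_option autoImplicit false

/-!
# S5172, piece LCP: `LiftConj` from `CenterScalar` and `ScalarOne`
-/

namespace Cfsg.Agent.Lib.Helper82.PsuLCP

open Matrix Cfsg.Agent.Lib.Helper43.SUBase Cfsg.Agent.H84.PslDefs
  Cfsg.Agent.Lib.Helper46.PsuDefs Cfsg.Agent.Lib.Helper46.PsuStmt
  Cfsg.Agent.Lib.Helper82.PsuProj

universe u

theorem main : Cfsg.Agent.Lib.Helper46.PsuStmt.LiftConjOfParts.{u} := by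
  intro hZ0 hZ1 n K _ _ q D hn g x hx hbar
  obtain ⟨u', hu', hEq⟩ := (mem_Ubar_iff D n _).1 hbar
  have hcen := (prJ_eq_iff D n _ _).1 hEq.symm
  obtain ⟨c, hc⟩ := scalar_of_center D n hZ0 hn _ hcen
  have h1 : ((g * x * g⁻¹ : ↥(GJ D n)) : SpecialLinearGroup (Fin n) K) =
      (u' : SpecialLinearGroup (Fin n) K) *
        ((u'⁻¹ * (g * x * g⁻¹) : ↥(GJ D n)) : SpecialLinearGroup (Fin n) K) := by
    rw [← Subgroup.coe_mul, mul_inv_cancel_left]
  have hyz : ∀ i j : Fin n,
      ((g : SpecialLinearGroup (Fin n) K) * (x : SpecialLinearGroup (Fin n) K) *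
        (g : SpecialLinearGroup (Fin n) K)⁻¹) i j = c * (u' : SpecialLinearGroup (Fin n) K) i j := by
    intro i j
    have h2 : ((g : SpecialLinearGroup (Fin n) K) * (x : SpecialLinearGroup (Fin n) K) *
        (g : SpecialLinearGroup (Fin n) K)⁻¹) =
        (u' : SpecialLinearGroup (Fin n) K) *
        ((u'⁻¹ * (g * x * g⁻¹) : ↥(GJ D n)) : SpecialLinearGroup (Fin n) K) := by
      rw [← h1]
      simp
    have h3 : ((g : SpecialLinearGroup (Fin n) K) * (x : SpecialLinearGroup (Fin n) K) *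
        (g : SpecialLinearGroup (Fin n) K)⁻¹).1 =
        (u' : SpecialLinearGroup (Fin n) K).1 *
        ((u'⁻¹ * (g * x * g⁻¹) : ↥(GJ D n)) : SpecialLinearGroup (Fin n) K).1 := by
      rw [h2]
      rfl
    have h4 := congrFun (congrFun h3 i) j
    rw [Matrix.mul_apply, Finset.sum_eq_single j] at h4
    · rw [mul_comm]
      refine h4.trans ?_
      have := hc j j
      rw [if_pos rfl] at this
      exact congrArg (fun t => (u' : SpecialLinearGroup (Fin n) K).1 i j * t) this
    · intro k _ hkj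
      have := hc k j
      rw [if_neg hkj] at this
      exact (congrArg (fun t => (u' : SpecialLinearGroup (Fin n) K).1 i k * t) this).trans
        (mul_zero _)
    · intro h
      exact absurd (Finset.mem_univ j) h
  have hxU : (x : SpecialLinearGroup (Fin n) K) ∈ Uni n K := (Subgroup.mem_inf.1 hx).2
  have hu'U : (u' : SpecialLinearGroup (Fin n) K) ∈ Uni n K := (Subgroup.mem_inf.1 hu').2
  have hc1 : c = 1 := hZ1 n K (by omega) g x u' hxU hu'U c hyz
  have hz1 : u'⁻¹ * (g * x * g⁻¹) = 1 := by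
    apply Subtype.ext
    apply Subtype.ext
    ext i j
    rw [hc i j, hc1]
    simp [Matrix.one_apply]
  have h3 : g * x * g⁻¹ = u' := by
    rw [← mul_one u', ← hz1, mul_inv_cancel_left]
  rw [h3]
  exact hu'

end Cfsg.Agent.Lib.Helper82.PsuLCP
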