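import Mathlib
import Cfsg.Agent.Lib.Helper18.ReeMultStmt

/-!
# S2113 / FIN2 (call by helper18; second seat)

The kernel of a central extension meets the commutator subgroup of the preimage of an
elementary abelian group `S` of order `8` (with a fixed-point-free element of order `7`)
trivially: the commutator pairing is an invariant alternating form, trivial by `P2FORM`.
-/

set_option autoImplicit false

namespace Cfsg.Agent.Lib.Helper82.ReeMultFIN2

open scoped commutatorElement
open Cfsg.Agent.Lib.Helper18.ReeMultStmt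

universe u v w

open scoped IsMulCommutative in
theorem main (hP : P2FORM.{u, w}) : FIN2.{u, w} := by
  intro Γ _ G _ σ hs hc S n hcard hsq hn7 hnS hfix z hz hzc
  classical
  have hab : ∀ x ∈ S, ∀ y ∈ S, x * y = y * x := by
    intro x hx y hy
    have h1 := hsq x hx
    have h2 := hsq y hy
    have h3 := hsq (x * y) (S.mul_mem hx hy)
    have hx' : x⁻¹ = x := inv_eq_of_mul_eq_one_left h1
    have hy' : y⁻¹ = y := inv_eq_of_mul_eq_one_left h2
    have h4 : (x * y)⁻¹ = x * y := inv_eq_of_mul_eq_one_left h3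
    rw [mul_inv_rev, hx', hy'] at h4
    exact h4.symm
  obtain ⟨B, hB⟩ : ∃ B : G → G → ↥(Subgroup.center Γ),
      ∀ x ∈ S, ∀ y ∈ S, ((B x y : ↥(Subgroup.center Γ)) : Γ) = cm σ hs x y := by
    refine ⟨fun x y => if h : x * y = y * x then ⟨cm σ hs x y, hc (cm_mem_ker σ hs h)⟩ else 1,
      ?_⟩
    intro x hx y hy
    simp only
    rw [dif_pos (hab x hx y hy)]
  have key := hP G S ↥(Subgroup.center Γ) B n hcard hsq hn7 hnS hfix ?_ ?_ ?_ ?_
  · have hcomm : ∀ g ∈ S.comap σ, ∀ h ∈ S.comap σ, g * h = h * g := by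
      intro g hg h hh
      apply comm_of_cm σ hs hc
      have h1 := key (σ g) hg (σ h) hh
      rw [← hB _ hg _ hh, h1]
      exact Subgroup.coe_one _
    have hbot : ⁅S.comap σ, S.comap σ⁆ = ⊥ := by
      rw [Subgroup.commutator_eq_bot_iff_le_centralizer]
      intro g hg
      rw [Subgroup.mem_centralizer_iff]
      intro h hh
      exact hcomm h hh g hg
    rw [hbot] at hzc
    exact Subgroup.mem_bot.1 hzc
  · intro x hx x' hx' y hy
    apply Subtype.ext
    rw [Subgroup.coe_mul, hB _ (S.mul_mem hx hx') _ hy, hB _ hx _ hy, hB _ hx' _ hy]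
    exact cm_mul_left_c σ hs hc (hab x' hx' y hy)
  · intro x hx y hy y' hy'
    apply Subtype.ext
    rw [Subgroup.coe_mul, hB _ hx _ (S.mul_mem hy hy'), hB _ hx _ hy, hB _ hx _ hy']
    exact cm_mul_right_c σ hs hc (hab x hx y' hy')
  · intro x hx
    apply Subtype.ext
    rw [hB _ hx _ hx]
    show cm σ hs x x = 1
    unfold cm
    exact commutatorElement_self _
  · intro x hx y hy
    apply Subtype.ext
    rw [hB _ (hnS x hx) _ (hnS y hy), hB _ hx _ hy]
    have h1 := conj_cm σ hs hc (sec σ hs n) x y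
    rw [sec_spec] at h1
    rw [← h1, cm_central σ hs hc (hab x hx y hy), mul_inv_cancel_right]


end Cfsg.Agent.Lib.Helper82.ReeMultFIN2
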