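import Mathlib
import Cfsg.Agent.Lib.Helper40.SFStmt

/-!
# S5664 / ALLTV (call by helper40)

One `F`-transvection in `c.M` gives all of them: conjugation by `L`-linear isometries
(`Trans`), scaling of the centre by `t` (which multiplies the parameter by `t²`), products,
and the fact that every element of a finite field is a sum of two squares.
-/

set_option autoImplicit false

namespace Cfsg.Agent.Lib.Helper82.SFALLTV

open Cfsg.Agent.Lib.Helper40.SFStmt Cfsg.Agent.Lib.Helper94.Basic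

universe u

open Polynomial in
/-- every element of a finite field is a sum of two squares -/
theorem sum_two_sq {F : Type*} [Field F] [Fintype F] (c : F) : ∃ t s : F, t ^ 2 + s ^ 2 = c := by
  rcases Nat.even_or_odd (Fintype.card F) with he | ho
  · have h2 : ringChar F = 2 := FiniteField.even_card_iff_char_two.mpr (Nat.even_iff.mp he)
    obtain ⟨t, ht⟩ := FiniteField.isSquare_of_char_two h2 c
    exact ⟨t, 0, by rw [ht]; ring⟩
  · obtain ⟨a, b, hab⟩ := FiniteField.exists_root_sum_quadratic (f := (X : F[X]) ^ 2)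
      (g := (X : F[X]) ^ 2 - C c) (degree_X_pow 2) (degree_X_pow_sub_C (by decide) _)
      (Nat.odd_iff.mp ho)
    refine ⟨a, b, ?_⟩
    rw [← sub_eq_zero]
    simpa only [eval_C, eval_X, eval_pow, eval_sub, ← add_sub_assoc] using hab

section tv

variable {F L : Type u} [Field F] [Field L] [Algebra F L] {n : ℕ}

theorem tv_one_zero (τ : L →ₗ[F] F) (d : W n L) : IsTv τ (1 : W n L ≃ₗ[F] W n L) d 0 := by
  intro x
  rw [zero_mul, zero_smul, add_zero]
  rfl

theorem tv_one_dzero (τ : L →ₗ[F] F) (s : F) : IsTv τ (1 : W n L ≃ₗ[F] W n L) 0 s := by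
  intro x
  rw [smul_zero, add_zero]
  rfl

theorem tv_mul (τ : L →ₗ[F] F) {k k' : W n L ≃ₗ[F] W n L} {d : W n L} {s s' : F}
    (h : IsTv τ k d s) (h' : IsTv τ k' d s') : IsTv τ (k * k') d (s + s') := by
  intro x
  rw [LinearEquiv.mul_apply, h (k' x), h' x, ff_add_left, ff_smul_left, ff_self, mul_zero,
    add_zero, add_assoc, ← add_smul]
  congr 2
  ring

theorem tv_scale (τ : L →ₗ[F] F) {k : W n L ≃ₗ[F] W n L} {d : W n L} {s t : F}
    (h : IsTv τ k (t • d) s) : IsTv τ k d (s * t ^ 2) := by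
  intro x
  rw [h x, ff_smul_right, smul_smul]
  congr 2
  ring

theorem tv_conj (c : Ctx F L n) {k : W n L ≃ₗ[F] W n L} (hk : k ∈ c.M) {d : W n L} {s : F}
    (h : IsTv c.τ k d s) (g : W n L ≃ₗ[L] W n L)
    (hg : ∀ a b : W n L, Cfsg.sympForm n L (g a) (g b) = Cfsg.sympForm n L a b) :
    ∃ k' ∈ c.M, IsTv c.τ k' (g d) s := by
  have hgM := c.hsub g hg
  refine ⟨g.restrictScalars F * k * (g.restrictScalars F)⁻¹,
    c.M.mul_mem (c.M.mul_mem hgM hk) (c.M.inv_mem hgM), ?_⟩
  intro x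
  rw [LinearEquiv.mul_apply, LinearEquiv.mul_apply]
  have h1 : (g.restrictScalars F)⁻¹ x = g.symm x := rfl
  rw [h1, h (g.symm x), map_add, map_smul]
  have h2 : (g.restrictScalars F) (g.symm x) = x := g.apply_symm_apply x
  have h3 : (g.restrictScalars F) d = g d := rfl
  have h4 : ff c.τ (g.symm x) d = ff c.τ x (g d) := by
    unfold ff
    rw [← hg (g.symm x) d, g.apply_symm_apply]
  rw [h2, h3, h4]

end tv

theorem main (h : Trans.{u}) : AllTv.{u} := by
  intro F L _ _ _ _ n c ⟨k₀, hk₀, d₀, s₀, hd₀, hs₀, htv₀⟩ d s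
  classical
  by_cases hd : d = 0
  · subst hd
    exact ⟨1, c.M.one_mem, tv_one_dzero c.τ s⟩
  have hA : ∀ t : F, ∃ k ∈ c.M, IsTv c.τ k d (s₀ * t ^ 2) := by
    intro t
    by_cases ht : t = 0
    · subst ht
      refine ⟨1, c.M.one_mem, ?_⟩
      have h0 : s₀ * (0 : F) ^ 2 = 0 := by ring
      rw [h0]
      exact tv_one_zero c.τ d
    · have htd : t • d ≠ 0 := smul_ne_zero ht hd
      obtain ⟨g, hg, hgd⟩ := h L n d₀ (t • d) hd₀ htd
      obtain ⟨k', hk', htv'⟩ := tv_conj c hk₀ htv₀ g hg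
      rw [hgd] at htv'
      exact ⟨k', hk', tv_scale c.τ htv'⟩
  have hfin : Fintype F := Fintype.ofFinite F
  obtain ⟨a, b, hab⟩ := sum_two_sq (s / s₀)
  obtain ⟨k1, hk1, h1⟩ := hA a
  obtain ⟨k2, hk2, h2⟩ := hA b
  refine ⟨k1 * k2, c.M.mul_mem hk1 hk2, ?_⟩
  have h3 := tv_mul c.τ h1 h2
  have h4 : s₀ * a ^ 2 + s₀ * b ^ 2 = s := by
    rw [← mul_add, hab]
    field_simp
  rw [h4] at h3
  exact h3


end Cfsg.Agent.Lib.Helper82.SFALLTV
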